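import Cfsg.Agent.LargeFischer60.Data

/-!
Large Fischer type: the finite facts on the four multiples `L` of `vk k`, its orthogonal and the
two monomial maps `gk k i` fixing it.
-/

set_option autoImplicit false
set_option maxRecDepth 100000

namespace CfsgLib.LargeFischer60

open CfsgLib.LargeFischer85

theorem scal_eq : ∀ (e : ZMod 3) (d : ℕ), d < 4 → scal e d = sc e.val d := by decide

theorem dig_lt (n i : ℕ) : dig n i < 4 := Nat.mod_lt _ (by norm_num)

theorem scal_dig (e : ZMod 3) (n i : ℕ) : scal e (dig n i) = sc e.val (n / 4 ^ i % 4) :=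
  scal_eq e _ (dig_lt n i)

theorem sc_lt (e d : ℕ) : sc e d < 4 := Nat.mod_lt _ (by norm_num)

theorem mkN_val (f : Fin 6 → ℕ) (h : ∀ i, f i < 4) :
    (mkN f).val = f 0 + 4 * f 1 + 16 * f 2 + 64 * f 3 + 256 * f 4 + 1024 * f 5 := by
  have := h 0; have := h 1; have := h 2; have := h 3; have := h 4; have := h 5
  exact Nat.mod_eq_of_lt (by omega)

theorem om_val (n : Fin 4096) : (om n).val = omN n.val := by
  rw [om, mkN_val _ fun i => by rw [scal_dig]; exact sc_lt _ _]
  simp only [scal_dig]
  norm_num [omN]
  rfl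

theorem gk_val (k : ZMod 3) (i : Fin 2) (n : Fin 4096) : (gk k i n).val = gN k.val i.val n.val := by
  rw [gk, monF, mkN_val _ fun i => by rw [scal_dig]; exact sc_lt _ _]
  simp only [scal_dig]
  fin_cases k <;> fin_cases i <;>
    norm_num [gN, g00, g01, g10, g11, g20, g21, sk, ek] <;> rfl

theorem vadd_val (a b : Fin 4096) : (vadd a b).val = a.val ^^^ b.val :=
  Nat.mod_eq_of_lt (Nat.xor_lt_two_pow (n := 12) a.isLt b.isLt)

theorem dig_weight (m : ℕ) (hm : m < 4) : (if m = 0 then 0 else 1) = (m + 3) / 4 := by
  interval_cases m <;> rfl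

theorem wt_eq (n : Fin 4096) : wt n = wN n.val := by
  have h : List.range 6 = [0, 1, 2, 3, 4, 5] := rfl
  simp only [wt, h, List.foldr, dig_weight _ (dig_lt _ _)]
  norm_num [wN, dig]
  ring

theorem orth_eq (a b : Fin 4096) : orth a b ↔ orN a.val b.val = true := by
  rw [orth, wt_eq, wt_eq, wt_eq, vadd_val, orN, beq_iff_eq]

theorem vk_val (k : ZMod 3) : (vk k).val = vN k.val := by fin_cases k <;> rfl

theorem inL_eq (v u : Fin 4096) : inL v u ↔ inLN v.val u.val = true := by
  simp only [inL, inLN, Bool.or_eq_true, beq_iff_eq, Fin.ext_iff, om_val, Fin.val_zero, or_assoc]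

theorem allN_spec (P : ℕ → Bool) : ∀ d a, allN P d a = true → ∀ b, b / 2 ^ d = a → P b = true := by
  intro d
  induction d with
  | zero => intro a h b hb; rw [pow_zero, Nat.div_one] at hb; exact hb ▸ h
  | succ d ih =>
    intro a h b hb
    rw [allN, Bool.and_eq_true] at h
    rw [pow_succ, ← Nat.div_div_eq_div_mul] at hb
    rcases Nat.mod_two_eq_zero_or_one (b / 2 ^ d) with e | e
    · exact ih _ h.1 b (by omega)
    · exact ih _ h.2 b (by omega)

theorem forall_of_allN (P : ℕ → Bool) (h : allN P 12 0 = true) (n : Fin 4096) : P n.val = true :=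
  allN_spec P 12 0 h _ (Nat.div_eq_of_lt n.isLt)

/-- Everything outside `L` orthogonal to `v` descends to `rk`. -/
def chkDescend (k : ℕ) (u : ℕ) : Bool :=
  !(orN u (vN k)) || inLN (vN k) u || descend k 7 u == rk k

/-- The orthogonal of `L` is spanned by the echelon vectors. -/
def chkSpan (k : ℕ) (u : ℕ) : Bool :=
  !(orN u (vN k) && orN u (omN (vN k))) || red (basis k) u == 0

/-- Only `L` is fixed modulo `L`. -/
def chkFix (k : ℕ) (u : ℕ) : Bool :=
  !(inLN (vN k) (gN k 0 u ^^^ u) && inLN (vN k) (gN k 1 u ^^^ u)) || inLN (vN k) u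

/-- Only `L` is orthogonal to the spanning vectors. -/
def chkPerp (k : ℕ) (u : ℕ) : Bool :=
  !(pool k).all (orN u) || inLN (vN k) u

/-- The order five. -/
def chkFive (k : ℕ) (u : ℕ) : Bool :=
  gN k 0 (gN k 0 (gN k 0 (gN k 0 (gN k 0 u)))) == u &&
    gN k 1 (gN k 1 (gN k 1 (gN k 1 (gN k 1 u)))) == u

theorem descend_zero : allN (chkDescend 0) 12 0 = true := by decide +kernel
theorem descend_one : allN (chkDescend 1) 12 0 = true := by decide +kernel
theorem descend_two : allN (chkDescend 2) 12 0 = true := by decide +kernel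
theorem span_zero : allN (chkSpan 0) 12 0 = true := by decide +kernel
theorem span_one : allN (chkSpan 1) 12 0 = true := by decide +kernel
theorem span_two : allN (chkSpan 2) 12 0 = true := by decide +kernel
theorem fix_zero : allN (chkFix 0) 12 0 = true := by decide +kernel
theorem fix_one : allN (chkFix 1) 12 0 = true := by decide +kernel
theorem fix_two : allN (chkFix 2) 12 0 = true := by decide +kernel
theorem perp_zero : allN (chkPerp 0) 12 0 = true := by decide +kernel
theorem perp_one : allN (chkPerp 1) 12 0 = true := by decide +kernel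
theorem perp_two : allN (chkPerp 2) 12 0 = true := by decide +kernel
theorem five_zero : allN (chkFive 0) 12 0 = true := by decide +kernel
theorem five_one : allN (chkFive 1) 12 0 = true := by decide +kernel
theorem five_two : allN (chkFive 2) 12 0 = true := by decide +kernel

/-- The square of the scalar. -/
def chkOm (u : ℕ) : Bool :=
  omN (omN u) == u ^^^ omN u && omN (omN (omN u)) == u

theorem om_all : allN chkOm 12 0 = true := by decide +kernel

end CfsgLib.LargeFischer60
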