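import Cfsg.Agent.LargeFischer60.Frame
import Cfsg.Agent.ExtraspecialTwo.Rank
import Cfsg.Agent.LargeExtraspecial.Simple

/-!
Large Fischer type: a conjugate `s` of `z` in `Q` with vector `vk k`, the third involution
`x s x⁻¹`, and the subgroup of order eight they generate.
-/

set_option autoImplicit false

namespace CfsgLib.LargeFischer60

open Cfsg CfsgLib.LargeFischer85
open CfsgLib.LargeExtraspecial (Setting zOf mem_zOf)

variable {G : Type*} [Group G]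

/-- A conjugate of a subgroup. -/
abbrev conjQ (Qz : Subgroup G) (g : G) : Subgroup G := Qz.map (MulAut.conj g).toMonoidHom

/-- The hypotheses on the pair `z`, `s`. -/
structure Cfg (Qz : Subgroup G) (z : G) (pr : G → Fin 4096) (k : ZMod 3) (s g x : G) : Prop where
  frame : Frame Qz z pr k
  orbit : ∀ a ∈ Qz, ∀ b ∈ Qz, IsConj z a → IsConj z b → a ≠ z → b ≠ z →
    ∃ h ∈ cz z, h * a * h⁻¹ = b
  s_mem : s ∈ Qz
  s_pr : pr s = vk k
  g_conj : g * z * g⁻¹ = s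
  x_mem : x ∈ cz z
  x_ac : ∀ a ∈ Qz, pr (x * a * x⁻¹) = om (pr a)
  pair_card : Nat.card ↥(Qz ⊓ conjQ Qz g) = 2 ^ 7
  pair_quot : ∃ ψ : ↥(cz z ⊓ cz s) →* alternatingGroup (Fin 6), Function.Surjective ψ ∧
    ∀ c : ↥(cz z ⊓ cz s), ψ c = 1 ↔
      ∃ b ∈ conjQ Qz g, b * z = z * b ∧ (c : G) * b⁻¹ ∈ Qz

namespace Cfg

variable {Qz : Subgroup G} {z : G} {pr : G → Fin 4096} {k : ZMod 3} {s g x : G}
  (C : Cfg Qz z pr k s g x)
include C

theorem ac_x (v : Fin 4096) : C.frame.ac x v = om v := by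
  obtain ⟨a, ha, rfl⟩ := C.frame.surj v
  rw [← C.frame.ac_pr C.x_mem ha, C.x_ac a ha]

theorem lin_x : C.frame.Lin x := fun v => by rw [C.ac_x, C.ac_x]

theorem s_ne_z : s ≠ z := fun e => (vk_facts k).2.1 (by rw [← C.s_pr, e, C.frame.pr_z])

theorem setting_s : Setting (conjQ Qz g) s := C.g_conj ▸ C.frame.setting.conj g

theorem s'_mem : x * s * x⁻¹ ∈ Qz := C.frame.conj_mem C.x_mem C.s_mem

theorem s'_pr : pr (x * s * x⁻¹) = om (vk k) := by rw [C.x_ac s C.s_mem, C.s_pr]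

theorem zs_comm : z * s = s * z := (C.frame.setting.comm C.s_mem).symm

theorem s_sq : s * s = 1 := C.setting_s.z_mul_z

theorem s'_sq : x * s * x⁻¹ * (x * s * x⁻¹) = 1 := by
  rw [show x * s * x⁻¹ * (x * s * x⁻¹) = x * (s * s) * x⁻¹ by group, C.s_sq]
  group

theorem ss'_comm : s * (x * s * x⁻¹) = x * s * x⁻¹ * s :=
  (C.frame.comm _ C.s_mem _ C.s'_mem).2 (by rw [C.s_pr, C.s'_pr]; exact (vec_facts k).2.2.2.1)

theorem z_mem_conjQ [Finite G] : z ∈ conjQ Qz g :=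
  LargeExtraspecial.mem_conj_of_conj_mem C.frame.setting (by rw [C.frame.card]; norm_num) g
    (C.g_conj.symm ▸ C.s_mem) (C.g_conj.symm ▸ C.s_ne_z)

/-- An element of `C(z)` moving the vector of `s` only up to `z` can be adjusted to fix `s`. -/
theorem exists_fix {m : G} (hm : m ∈ cz z) (e : C.frame.ac m (vk k) = vk k) :
    ∃ q ∈ Qz, q * m ∈ cz z ⊓ cz s ∧ ∀ v, C.frame.ac (q * m) v = C.frame.ac m v := by
  have F := C.frame
  have h1 : pr (m * s * m⁻¹) = pr s := by rw [F.ac_pr hm C.s_mem, C.s_pr, e]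
  have main : ∀ q ∈ Qz, q * (m * s * m⁻¹) * q⁻¹ = s → q * m ∈ cz z ⊓ cz s ∧
      ∀ v, F.ac (q * m) v = F.ac m v := by
    intro q hq hqs
    refine ⟨⟨(cz z).mul_mem (F.le_cz hq) hm, mem_cz_of_conj ?_⟩, fun v => ?_⟩
    · rw [show q * m * s * (q * m)⁻¹ = q * (m * s * m⁻¹) * q⁻¹ by group]
      exact hqs
    · rw [F.ac_mul (F.le_cz hq) hm, F.ac_of_mem hq]
  rcases F.eq_or C.s_mem (F.conj_mem hm C.s_mem) h1.symm with e1 | e1
  · exact ⟨1, Qz.one_mem, main 1 Qz.one_mem (by rw [one_mul, inv_one, mul_one, e1])⟩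
  · obtain ⟨q, hq, hqs⟩ := LargeExtraspecial.exists_conj_eq_mul F.setting.extraspecial
      F.setting.mem_iff C.s_mem (F.setting.not_mem_zOf C.setting_s.z_ne_one C.s_ne_z)
    refine ⟨q, hq, main q hq ?_⟩
    rw [e1, show q * (z * s) * q⁻¹ = q * z * q⁻¹ * (q * s * q⁻¹) by group,
      conj_eq_of_mem_cz (F.le_cz hq), hqs, ← mul_assoc, F.setting.z_mul_z, one_mul]

theorem ac_fix {c : G} (hc : c ∈ cz z ⊓ cz s) : C.frame.ac c (vk k) = vk k := by
  rw [← C.s_pr, ← C.frame.ac_pr hc.1 C.s_mem, conj_eq_of_mem_cz hc.2]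

/-- The monomial generators lift to `C(z, s)`. -/
theorem exists_lift (i : Fin 2) :
    ∃ c ∈ cz z ⊓ cz s, C.frame.Lin c ∧ ∀ v, C.frame.ac c v = gk k i v := by
  obtain ⟨m, hm, hma⟩ := C.frame.gens i
  have e : ∀ v, C.frame.ac m v = gk k i v := fun v => by
    obtain ⟨a, ha, rfl⟩ := C.frame.surj v
    rw [← C.frame.ac_pr hm ha, hma a ha]
  obtain ⟨q, hq, hc, hce⟩ := C.exists_fix hm ((e _).trans (gk_fix k i).1)
  exact ⟨q * m, hc, C.frame.lin_of_fix hc.1 (by rw [hce, e, (gk_fix k i).1])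
    (by rw [hce, e, (gk_fix k i).2]), fun v => by rw [hce, e]⟩

theorem gk_inL (i : Fin 2) {u : Fin 4096} (hu : inL (vk k) u) : gk k i u = u := by
  obtain ⟨c, hc, hl, hce⟩ := C.exists_lift i
  rcases hu with rfl | rfl | rfl | rfl
  · rw [← hce, C.frame.ac_zero hc.1]
  · exact (gk_fix k i).1
  · exact (gk_fix k i).2
  · rw [← hce, hl, hce, (gk_fix k i).2]

/-- An element of odd order centralizing `z` and `s` centralizes `x s x⁻¹`. -/
theorem odd_fix {c : G} (hc : c ∈ cz z ⊓ cz s) {n : ℕ} (hn : Odd n) (hcn : c ^ n = 1) :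
    c * (x * s * x⁻¹) * c⁻¹ = x * s * x⁻¹ := by
  have F := C.frame
  set t := x * s * x⁻¹
  have hpow : ∀ j : ℕ, F.Anti c → F.Anti (c ^ (2 * j + 1)) := by
    intro j hj
    induction j with
    | zero => rwa [mul_zero, zero_add, pow_one]
    | succ j ih =>
      intro v
      have hcj : c ^ (2 * j + 1) ∈ cz z := (cz z).pow_mem hc.1 _
      rw [show 2 * (j + 1) + 1 = (2 * j + 1) + 2 by ring, pow_add, pow_two,
        F.ac_mul hcj ((cz z).mul_mem hc.1 hc.1), F.ac_mul hcj ((cz z).mul_mem hc.1 hc.1),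
        F.lin_mul_anti hc.1 hc.1 hj hj, ih]
  obtain ⟨j, rfl⟩ := hn
  have hlin : F.Lin c := (F.lin_or_anti hc.1).resolve_right fun h =>
    F.not_lin_anti (cz z).one_mem F.lin_one (hcn ▸ hpow j h)
  have h1 : pr (c * t * c⁻¹) = pr t := by
    rw [F.ac_pr hc.1 C.s'_mem, C.s'_pr, hlin, C.ac_fix hc]
  rcases F.eq_or C.s'_mem (F.conj_mem hc.1 C.s'_mem) h1.symm with e | e
  · exact e
  · exfalso
    have key : ∀ i : ℕ, c ^ (2 * i + 1) * t * (c ^ (2 * i + 1))⁻¹ = z * t := by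
      intro i
      induction i with
      | zero => rwa [mul_zero, zero_add, pow_one]
      | succ i ih =>
        have h2 : c * (z * t) * c⁻¹ = t := by
          rw [show c * (z * t) * c⁻¹ = c * z * c⁻¹ * (c * t * c⁻¹) by group,
            conj_eq_of_mem_cz hc.1, e, ← mul_assoc, F.setting.z_mul_z, one_mul]
        rw [show 2 * (i + 1) + 1 = 1 + 1 + (2 * i + 1) by ring, pow_add,
          show c ^ (1 + 1) * c ^ (2 * i + 1) * t * (c ^ (1 + 1) * c ^ (2 * i + 1))⁻¹ =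
            c * (c * (c ^ (2 * i + 1) * t * (c ^ (2 * i + 1))⁻¹) * c⁻¹) * c⁻¹ by
          rw [pow_add c 1 1, pow_one]; group, ih, h2, e]
    have := key j
    rw [hcn, inv_one, one_mul, mul_one] at this
    exact F.setting.z_ne_one (mul_eq_right.1 this.symm)

/-- Swapping `z` and `s`. -/
theorem exists_swap [Finite G] : ∃ w : G, w * z * w⁻¹ = s ∧ w * s * w⁻¹ = z ∧
    (∀ a, a ∈ conjQ Qz g ↔ w⁻¹ * a * w ∈ Qz) ∧ (∀ a, a ∈ Qz ↔ w⁻¹ * a * w ∈ conjQ Qz g) := by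
  have F := C.frame
  have hzq : g⁻¹ * z * g ∈ Qz := (LargeExtraspecial.mem_conj_iff _ _ _).1 C.z_mem_conjQ
  have hne : g⁻¹ * z * g ≠ z := fun e => C.s_ne_z (by
    rw [← C.g_conj]
    calc g * z * g⁻¹ = g * (g⁻¹ * z * g) * g⁻¹ := by rw [e]
      _ = z := by group)
  have hc1 : IsConj z (g⁻¹ * z * g) := isConj_iff.2 ⟨g⁻¹, by rw [inv_inv]⟩
  obtain ⟨h, hh, hhs⟩ := C.orbit s C.s_mem _ hzq (isConj_iff.2 ⟨g, C.g_conj⟩) hc1 C.s_ne_z hne
  have e1 : g * h * z * (g * h)⁻¹ = s := by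
    rw [← C.g_conj, show g * h * z * (g * h)⁻¹ = g * (h * z * h⁻¹) * g⁻¹ by group,
      conj_eq_of_mem_cz hh]
  have e2 : g * h * s * (g * h)⁻¹ = z := by
    rw [show g * h * s * (g * h)⁻¹ = g * (h * s * h⁻¹) * g⁻¹ by group, hhs]
    group
  have hQ : ∀ a, a ∈ conjQ Qz g ↔ (g * h)⁻¹ * a * (g * h) ∈ Qz := by
    intro a
    rw [LargeExtraspecial.mem_conj_iff]
    have := F.setting.normalized h⁻¹ (mem_cz.1 ((cz z).inv_mem hh)) (g⁻¹ * a * g)
    rw [this]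
    group
  refine ⟨g * h, e1, e2, hQ, fun a => ?_⟩
  rw [hQ]
  have e3 : g * h * (g * h) * z * (g * h * (g * h))⁻¹ = z := by
    rw [show g * h * (g * h) * z * (g * h * (g * h))⁻¹ =
      g * h * (g * h * z * (g * h)⁻¹) * (g * h)⁻¹ by group, e1, e2]
  have := F.setting.normalized (g * h * (g * h))⁻¹
    (mem_cz.1 ((cz z).inv_mem (mem_cz_of_conj e3))) a
  rw [this]
  group

/-- Half of `Q` centralizes `s`. -/
theorem card_centralizing : Nat.card ↥(Qz ⊓ cz s) = 2 ^ 12 := by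
  have F := C.frame
  obtain ⟨t, ht, htp⟩ := F.surj (trk k)
  have hidx : ((Qz ⊓ cz s).subgroupOf Qz).index = 2 := by
    refine Subgroup.index_eq_two_iff.2 ⟨⟨t, ht⟩, fun b => ?_⟩
    have hmem : ∀ y : ↥Qz, y ∈ (Qz ⊓ cz s).subgroupOf Qz ↔ orth (pr (y : G)) (vk k) :=
      fun y => by
        rw [Subgroup.mem_subgroupOf, Subgroup.mem_inf, and_iff_right y.2, mem_cz,
          F.comm _ y.2 _ C.s_mem, C.s_pr]
    have hn : ¬ orth (trk k) (vk k) := (vec_facts k).1.1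
    rw [hmem, hmem, Subgroup.coe_mul, F.mul _ b.2 _ ht, F.orth_add_left, htp]
    by_cases hb : orth (pr (b : G)) (vk k)
    · exact Or.inr ⟨hb, fun h => hn (h.1 hb)⟩
    · exact Or.inl ⟨iff_of_false hb hn, hb⟩
  have h := ((Qz ⊓ cz s).subgroupOf Qz).card_mul_index
  rw [hidx, F.card, Nat.card_congr (Subgroup.subgroupOfEquivOfLe
    (inf_le_left : Qz ⊓ cz s ≤ Qz)).toEquiv] at h
  omega

theorem inf_sq {a : G} (ha : a ∈ Qz ⊓ conjQ Qz g) [Finite G] : a * a = 1 := by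
  rcases (C.frame.setting.mem_iff _).1
    (LargeExtraspecial.sq_mem C.frame.setting.extraspecial ha.1) with e | e
  · exact e
  rcases (C.setting_s.mem_iff _).1
    (LargeExtraspecial.sq_mem C.setting_s.extraspecial ha.2) with e' | e'
  · exact e'
  · exact absurd (e'.symm.trans e) C.s_ne_z

end Cfg

end CfsgLib.LargeFischer60
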