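import Cfsg.Agent.LargeFischer60.Third

/-!
Large Fischer type: the elementary abelian subgroup of order eight and the elements normalizing
it.
-/

set_option autoImplicit false

namespace CfsgLib.LargeFischer60

open Cfsg CfsgLib.LargeFischer85
open CfsgLib.LargeExtraspecial (Setting zOf mem_zOf)

variable {G : Type*} [Group G] {Qz : Subgroup G} {z : G} {pr : G → Fin 4096} {k : ZMod 3}

namespace Frame

variable (F : Frame Qz z pr k)

/-- The preimage of `L` in `Q`. -/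
def eight : Subgroup G where
  carrier := {a | a ∈ Qz ∧ inL (vk k) (pr a)}
  one_mem' := ⟨Qz.one_mem, Or.inl F.pr_one⟩
  mul_mem' := fun {a b} ha hb => ⟨Qz.mul_mem ha.1 hb.1, by
    rw [F.mul a ha.1 b hb.1]; exact inL_vadd k ha.2 hb.2⟩
  inv_mem' := fun {a} ha => ⟨Qz.inv_mem ha.1, by rw [F.pr_inv ha.1]; exact ha.2⟩

theorem mem_eight {a : G} : a ∈ F.eight ↔ a ∈ Qz ∧ inL (vk k) (pr a) := Iff.rfl

theorem z_mem_eight : z ∈ F.eight := ⟨F.setting.z_mem, Or.inl F.pr_z⟩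

theorem eight_sq {a : G} (ha : a ∈ F.eight) : a * a = 1 :=
  (F.sq a ha.1).2 (orth_inL k ha.2 ha.2).2

theorem eight_comm {a b : G} (ha : a ∈ F.eight) (hb : b ∈ F.eight) : a * b = b * a :=
  (F.comm a ha.1 b hb.1).2 (orth_inL k ha.2 hb.2).1

end Frame

namespace Cfg

variable {s g x : G} (C : Cfg Qz z pr k s g x)
include C

theorem s_mem_eight : s ∈ C.frame.eight := ⟨C.s_mem, Or.inr (Or.inl C.s_pr)⟩

theorem s'_mem_eight : x * s * x⁻¹ ∈ C.frame.eight :=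
  ⟨C.s'_mem, Or.inr (Or.inr (Or.inl C.s'_pr))⟩

theorem eight_le {P : Subgroup G} (hz : z ∈ P) (hs : s ∈ P) (ht : x * s * x⁻¹ ∈ P) :
    C.frame.eight ≤ P := by
  have F := C.frame
  rintro a ⟨ha, hl⟩
  have main : ∀ b ∈ Qz, b ∈ P → pr b = pr a → a ∈ P := fun b hb hbP e => by
    rcases F.eq_or hb ha e with rfl | rfl
    · exact hbP
    · exact P.mul_mem hz hbP
  rcases hl with e | e | e | e
  · exact main 1 Qz.one_mem P.one_mem (by rw [F.pr_one, e])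
  · exact main s C.s_mem hs (by rw [C.s_pr, e])
  · exact main _ C.s'_mem ht (by rw [C.s'_pr, e])
  · refine main (s * (x * s * x⁻¹)) (Qz.mul_mem C.s_mem C.s'_mem) (P.mul_mem hs ht) ?_
    rw [F.mul _ C.s_mem _ C.s'_mem, C.s_pr, C.s'_pr, e, (vk_facts k).2.2.2.2.2.2.2.2]

theorem eight_le_inter [Finite G] : C.frame.eight ≤ Qz ⊓ conjQ Qz g :=
  C.eight_le ⟨C.frame.setting.z_mem, C.z_mem_conjQ⟩ ⟨C.s_mem, C.setting_s.z_mem⟩
    ⟨C.s'_mem, C.s'_mem_conjQ⟩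

theorem conj_mem_eight {h : G} (hz : h * z * h⁻¹ ∈ C.frame.eight)
    (hs : h * s * h⁻¹ ∈ C.frame.eight) (ht : h * (x * s * x⁻¹) * h⁻¹ ∈ C.frame.eight) {a : G}
    (ha : a ∈ C.frame.eight) : h * a * h⁻¹ ∈ C.frame.eight :=
  C.eight_le (P := C.frame.eight.comap (MulAut.conj h).toMonoidHom) hz hs ht ha

theorem ac_pow {c : G} (hc : c ∈ cz z) {i : Fin 2} (hce : ∀ v, C.frame.ac c v = gk k i v) :
    ∀ (j : ℕ) (v : Fin 4096), C.frame.ac (c ^ j) v = (gk k i)^[j] v := by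
  intro j
  induction j with
  | zero => exact fun v => by rw [pow_zero, C.frame.ac_one, Function.iterate_zero_apply]
  | succ j ih =>
    intro v
    rw [pow_succ, C.frame.ac_mul ((cz z).pow_mem hc j) hc, ih, hce, Function.iterate_succ_apply]

/-- An element exchanging `z` and `s` normalizes the subgroup of order eight. -/
theorem exists_swap_normalizer [Finite G] : ∃ w : G, w * z * w⁻¹ = s ∧ w * s * w⁻¹ = z ∧
    (∀ a, a ∈ conjQ Qz g ↔ w⁻¹ * a * w ∈ Qz) ∧ (∀ a, a ∈ Qz ↔ w⁻¹ * a * w ∈ conjQ Qz g) ∧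
    ∀ a ∈ C.frame.eight, w * a * w⁻¹ ∈ C.frame.eight := by
  have F := C.frame
  obtain ⟨w, hw1, hw2, hwQ, hwQ'⟩ := C.exists_swap
  set t := w * (x * s * x⁻¹) * w⁻¹ with ht
  have htQ : t ∈ Qz := by
    rw [hwQ', ht]
    simpa [mul_assoc] using C.s'_mem_conjQ
  refine ⟨w, hw1, hw2, hwQ, hwQ', fun a ha => C.conj_mem_eight ?_ ?_ ⟨htQ, ?_⟩ ha⟩
  · rw [hw1]; exact C.s_mem_eight
  · rw [hw2]; exact F.z_mem_eight
  refine inL_of_fixed k (pr t) fun i => Or.inl ?_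
  obtain ⟨c, hc, -, hce⟩ := C.exists_lift i
  obtain ⟨e₂, b, hb, hord⟩ := Nat.exists_eq_two_pow_mul_odd (orderOf_pos c).ne'
  set d := c ^ (16 ^ e₂) with hd
  have hdb : d ^ b = 1 := by
    rw [hd, ← pow_mul, ← orderOf_dvd_iff_pow_eq_one, hord]
    refine mul_dvd_mul_right ?_ b
    exact pow_dvd_pow_of_dvd (by norm_num) e₂
  have hdm : d ∈ cz z ⊓ cz s := (cz z ⊓ cz s).pow_mem hc _
  have hdac : ∀ v, F.ac d v = gk k i v := fun v => by
    rw [hd, C.ac_pow hc.1 hce]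
    have h16 : 16 ^ e₂ % 5 = 1 := by rw [Nat.pow_mod]; norm_num
    rw [← Nat.div_add_mod (16 ^ e₂) 5, h16, Function.iterate_succ_apply, Function.iterate_mul]
    exact Function.iterate_fixed (gk_five k i (gk k i v)) _
  have hzfix : d * z * d⁻¹ = z := conj_eq_of_mem_cz hdm.1
  have hsfix : d * s * d⁻¹ = s := conj_eq_of_mem_cz hdm.2
  have hem : w⁻¹ * d * w ∈ cz z ⊓ cz s := by
    refine ⟨mem_cz_of_conj ?_, mem_cz_of_conj ?_⟩
    · calc w⁻¹ * d * w * z * (w⁻¹ * d * w)⁻¹ = w⁻¹ * (d * (w * z * w⁻¹) * d⁻¹) * w := by group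
        _ = w⁻¹ * (w * z * w⁻¹) * w := by rw [hw1, hsfix]
        _ = z := by group
    · calc w⁻¹ * d * w * s * (w⁻¹ * d * w)⁻¹ = w⁻¹ * (d * (w * s * w⁻¹) * d⁻¹) * w := by group
        _ = w⁻¹ * (w * s * w⁻¹) * w := by rw [hw2, hzfix]
        _ = s := by group
  have heb : (w⁻¹ * d * w) ^ b = 1 := by
    have e := conj_pow (a := w⁻¹) (b := d) (i := b)
    rw [inv_inv] at e
    rw [e, hdb]
    group
  have hfix : d * t * d⁻¹ = t := by
    have := C.odd_fix hem hb heb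
    calc d * t * d⁻¹ = w * (w⁻¹ * d * w * (x * s * x⁻¹) * (w⁻¹ * d * w)⁻¹) * w⁻¹ := by
          rw [ht]; group
      _ = t := by rw [this]
  have := F.ac_pr hdm.1 htQ
  rw [hfix, hdac] at this
  rw [← this, vadd_self]

end Cfg

end CfsgLib.LargeFischer60
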