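import Cfsg.Agent.LargeFischer60.Checks

/-!
Large Fischer type: the facts used on the four multiples `L` of `vk k` and on the orthogonal
space of `L`.
-/

set_option autoImplicit false
set_option maxRecDepth 100000

namespace CfsgLib.LargeFischer60

open CfsgLib.LargeFischer85

theorem by_class (C : ℕ → ℕ → Bool) (h0 : allN (C 0) 12 0 = true) (h1 : allN (C 1) 12 0 = true)
    (h2 : allN (C 2) 12 0 = true) (k : ZMod 3) (n : Fin 4096) : C k.val n.val = true := by
  fin_cases k
  exacts [forall_of_allN _ h0 n, forall_of_allN _ h1 n, forall_of_allN _ h2 n]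

/-- The group of order five. -/
theorem gk_five (k : ZMod 3) (i : Fin 2) (n : Fin 4096) :
    gk k i (gk k i (gk k i (gk k i (gk k i n)))) = n := by
  have h := by_class chkFive five_zero five_one five_two k n
  rw [chkFive, Bool.and_eq_true, beq_iff_eq, beq_iff_eq] at h
  refine Fin.ext ?_
  simp only [gk_val]
  fin_cases i
  exacts [h.1, h.2]

/-- Only `L` is fixed modulo `L`. -/
theorem inL_of_fixed (k : ZMod 3) (u : Fin 4096)
    (h : ∀ i, inL (vk k) (vadd (gk k i u) u)) : inL (vk k) u := by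
  have hh := by_class chkFix fix_zero fix_one fix_two k u
  have h0 := h 0
  have h1 := h 1
  simp only [inL_eq, vadd_val, gk_val, vk_val] at h0 h1 ⊢
  simp only [chkFix, Bool.or_eq_true, Bool.not_eq_true', Bool.and_eq_false_iff] at hh
  rcases hh with (e | e) | e
  · exact absurd h0 (by simpa using e)
  · exact absurd h1 (by simpa using e)
  · exact e

section Closed

variable {k : ZMod 3} {W : Fin 4096 → Prop}

/-- The predicate, read on numbers. -/
def OnNat (W : Fin 4096 → Prop) (n : ℕ) : Prop := ∃ h : n < 4096, W ⟨n, h⟩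

theorem onNat_of (a : Fin 4096) (h : W a) : OnNat W a.val := ⟨a.isLt, h⟩

variable (hadd : ∀ a b, W a → W b → W (vadd a b)) (hom : ∀ a, W a → W (om a))
  (hg : ∀ i a, W a → W (gk k i a))
include hadd

theorem onNat_xor {a b : ℕ} (ha : OnNat W a) (hb : OnNat W b) : OnNat W (a ^^^ b) := by
  obtain ⟨h1, h1'⟩ := ha
  obtain ⟨h2, h2'⟩ := hb
  have h := onNat_of _ (hadd _ _ h1' h2')
  rwa [vadd_val] at h

include hom hg

theorem onNat_step (t : ℕ) {u : ℕ} (hu : OnNat W u) : OnNat W (step k.val t u) := by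
  obtain ⟨h, hW⟩ := hu
  have e0 : OnNat W (gN k.val 0 u) := by
    have h' := onNat_of _ (hg 0 _ hW)
    rwa [gk_val] at h'
  have e1 : OnNat W (gN k.val 1 u) := by
    have h' := onNat_of _ (hg 1 _ hW)
    rwa [gk_val] at h'
  have e2 : OnNat W (omN u) := by
    have h' := onNat_of _ (hom _ hW)
    rwa [om_val] at h'
  unfold step
  split
  exacts [e0, e1, e2, onNat_xor hadd e0 ⟨h, hW⟩, onNat_xor hadd e1 ⟨h, hW⟩, onNat_xor hadd e2 e0,
    ⟨h, hW⟩]

theorem onNat_descend : ∀ (n : ℕ) (u : ℕ), OnNat W u → OnNat W (descend k.val n u) := by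
  intro n
  induction n with
  | zero => exact fun _ h => h
  | succ n ih =>
    intro u h
    unfold descend
    split
    · exact h
    · exact ih _ (onNat_step hadd hom hg _ h)

theorem onNat_pool (h0 : OnNat W (rk k.val)) : ∀ x ∈ pool k.val, OnNat W x := by
  unfold pool
  generalize prog = ps
  suffices ∀ (l : List ℕ), (∀ x ∈ l, OnNat W x) → ∀ x ∈ ps.foldl
      (fun l p => l ++ [step k.val p.2 (l.getD p.1 (rk k.val))]) l, OnNat W x from
    this _ (by simpa using h0)
  induction ps with
  | nil => exact fun l hl => hl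
  | cons p ps ih =>
    intro l hl
    rw [List.foldl_cons]
    refine ih _ fun x hx => ?_
    rcases List.mem_append.1 hx with e | e
    · exact hl x e
    · rw [List.mem_singleton.1 e]
      refine onNat_step hadd hom hg _ ?_
      rw [List.getD_eq_getElem?_getD]
      cases hp : l[p.1]? with
      | none => exact h0
      | some y => exact hl y (List.mem_of_getElem? hp)

omit hom hg in
theorem onNat_sel : ∀ (l : List ℕ) (m : ℕ), OnNat W 0 → (∀ x ∈ l, OnNat W x) →
    OnNat W (sel l m) := by
  intro l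
  induction l with
  | nil => exact fun _ h _ => h
  | cons a l ih =>
    intro m h0 hl
    unfold sel
    have := ih (m / 2) h0 fun x hx => hl x (List.mem_cons_of_mem _ hx)
    split
    · exact onNat_xor hadd (hl a List.mem_cons_self) this
    · exact this

omit hom hg in
theorem onNat_red : ∀ (l : List (ℕ × ℕ)), (∀ p ∈ l, OnNat W p.2) → ∀ u : ℕ,
    OnNat W (red l u) → OnNat W u := by
  intro l
  induction l with
  | nil => exact fun _ _ h => h
  | cons p l ih =>
    intro hl u h
    obtain ⟨a, b⟩ := p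
    rw [red] at h
    have hb : OnNat W b := hl (a, b) List.mem_cons_self
    have h' := ih (fun q hq => hl q (List.mem_cons_of_mem _ hq)) _ h
    split at h'
    · have := onNat_xor hadd h' hb
      rwa [Nat.xor_assoc, Nat.xor_self, Nat.xor_zero] at this
    · exact h'

/-- A closed set containing a vector outside `L` orthogonal to `v` contains the orthogonal of
`L`. -/
theorem mem_of_closed {u : Fin 4096} (hu : orth u (vk k)) (huL : ¬ inL (vk k) u) (hW : W u)
    (a : Fin 4096) (ha : orth a (vk k)) (ha' : orth a (om (vk k))) : W a := by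
  have hd := by_class chkDescend descend_zero descend_one descend_two k u
  rw [orth_eq, vk_val] at hu ha
  rw [orth_eq, om_val, vk_val] at ha'
  rw [inL_eq, vk_val] at huL
  simp only [chkDescend, hu, Bool.not_true, Bool.false_or, Bool.or_eq_true, beq_iff_eq] at hd
  have h0 : OnNat W (rk k.val) :=
    (hd.resolve_left huL) ▸ onNat_descend hadd hom hg 7 _ (onNat_of _ hW)
  have hz : OnNat W 0 := by
    have := onNat_xor hadd h0 h0
    rwa [Nat.xor_self] at this
  have hs := by_class chkSpan span_zero span_one span_two k a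
  simp only [chkSpan, ha, ha', Bool.and_self, Bool.not_true, Bool.false_or, beq_iff_eq] at hs
  obtain ⟨h, hWa⟩ := onNat_red hadd (basis k.val) (by
    intro p hp
    obtain ⟨q, -, rfl⟩ := List.mem_map.1 hp
    exact onNat_sel hadd _ _ hz (onNat_pool hadd hom hg h0)) a.val (hs ▸ hz)
  exact hWa

end Closed

theorem pool_perp : ∀ k : ZMod 3, ((pool k.val).all fun x =>
    decide (x < 4096) && orN x (vN k.val) && orN x (omN (vN k.val))) = true := by decide +kernel

/-- Only `L` is orthogonal to the orthogonal of `L`. -/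
theorem inL_of_perp (k : ZMod 3) (u : Fin 4096)
    (h : ∀ a, orth a (vk k) → orth a (om (vk k)) → orth u a) : inL (vk k) u := by
  have hh := by_class chkPerp perp_zero perp_one perp_two k u
  rw [inL_eq, vk_val]
  simp only [chkPerp, Bool.or_eq_true, Bool.not_eq_true'] at hh
  refine hh.resolve_left fun hne => ?_
  rw [Bool.eq_false_iff, ne_eq, List.all_eq_true] at hne
  refine hne fun x hx => ?_
  have hp := List.all_eq_true.1 (pool_perp k) x hx
  simp only [Bool.and_eq_true, decide_eq_true_eq] at hp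
  have h1 : orth (⟨x, hp.1.1⟩ : Fin 4096) (vk k) := by rw [orth_eq, vk_val]; exact hp.1.2
  have h2 : orth (⟨x, hp.1.1⟩ : Fin 4096) (om (vk k)) := by
    rw [orth_eq, om_val, vk_val]; exact hp.2
  exact (orth_eq u ⟨x, hp.1.1⟩).1 (h ⟨x, hp.1.1⟩ h1 h2)

/-- A vector moving `v` but not `ω v`. -/
def trk : ZMod 3 → Fin 4096 := ![3, 1, 2]

/-- A vector outside the orthogonal of `L` but orthogonal to `v`. -/
def outk : ZMod 3 → Fin 4096 := ![2, 3, 1]

/-- Two vectors orthogonal to `L` but not to each other. -/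
def pairk : ZMod 3 → Fin 4096 × Fin 4096 := ![(6, 35), (7, 33), (5, 34)]

theorem vk_facts : ∀ k : ZMod 3, inTwo k (vk k) ∧ vk k ≠ 0 ∧ om (vk k) ≠ 0 ∧
    om (vk k) ≠ vk k ∧ om (om (vk k)) ≠ 0 ∧ om (om (vk k)) ≠ vk k ∧
    om (om (vk k)) ≠ om (vk k) ∧ om (om (om (vk k))) = vk k ∧
    vadd (vk k) (om (vk k)) = om (om (vk k)) := by decide +kernel

theorem gk_fix : ∀ (k : ZMod 3) (i : Fin 2), gk k i (vk k) = vk k ∧
    gk k i (om (vk k)) = om (vk k) := by decide +kernel

theorem ek_sum : ∀ (k : ZMod 3) (i : Fin 2), ∑ j, ek k i j = 0 := by decide +kernel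

theorem sk_sign : ∀ i : Fin 2, Equiv.Perm.sign (sk i) = 1 := by decide +kernel

theorem vec_facts : ∀ k : ZMod 3,
    (¬ orth (trk k) (vk k) ∧ orth (trk k) (om (vk k))) ∧
    (orth (outk k) (vk k) ∧ ¬ orth (outk k) (om (vk k))) ∧
    (orth (pairk k).1 (vk k) ∧ orth (pairk k).1 (om (vk k)) ∧ orth (pairk k).2 (vk k) ∧
      orth (pairk k).2 (om (vk k)) ∧ ¬ orth (pairk k).1 (pairk k).2) ∧
    orth (vk k) (om (vk k)) ∧ sing (vk k) ∧ sing (om (vk k)) ∧ sing (om (om (vk k))) := by
  decide +kernel

theorem inL_vadd_aux : ∀ (k : ZMod 3) (i j : Fin 4),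
    inL (vk k) (vadd (![0, vk k, om (vk k), om (om (vk k))] i)
      (![0, vk k, om (vk k), om (om (vk k))] j)) := by decide +kernel

theorem exists_inL (k : ZMod 3) {a : Fin 4096} (ha : inL (vk k) a) :
    ∃ i : Fin 4, a = ![0, vk k, om (vk k), om (om (vk k))] i := by
  rcases ha with rfl | rfl | rfl | rfl
  exacts [⟨0, rfl⟩, ⟨1, rfl⟩, ⟨2, rfl⟩, ⟨3, rfl⟩]

theorem inL_vadd (k : ZMod 3) {a b : Fin 4096} (ha : inL (vk k) a) (hb : inL (vk k) b) :
    inL (vk k) (vadd a b) := by
  obtain ⟨i, rfl⟩ := exists_inL k ha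
  obtain ⟨j, rfl⟩ := exists_inL k hb
  exact inL_vadd_aux k i j

theorem om_zero : om 0 = 0 := by decide +kernel

theorem inL_om (k : ZMod 3) {a : Fin 4096} (ha : inL (vk k) a) : inL (vk k) (om a) := by
  rcases ha with rfl | rfl | rfl | rfl
  exacts [Or.inl om_zero, Or.inr (Or.inr (Or.inl rfl)), Or.inr (Or.inr (Or.inr rfl)),
    Or.inr (Or.inl (vk_facts k).2.2.2.2.2.2.2.1)]

theorem orth_inL_aux : ∀ (k : ZMod 3) (i j : Fin 4),
    orth (![0, vk k, om (vk k), om (om (vk k))] i) (![0, vk k, om (vk k), om (om (vk k))] j) ∧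
      sing (![0, vk k, om (vk k), om (om (vk k))] i) := by decide +kernel

theorem orth_inL (k : ZMod 3) {a b : Fin 4096} (ha : inL (vk k) a) (hb : inL (vk k) b) :
    orth a b ∧ sing a := by
  obtain ⟨i, rfl⟩ := exists_inL k ha
  obtain ⟨j, rfl⟩ := exists_inL k hb
  exact orth_inL_aux k i j

theorem om_om (u : Fin 4096) : om (om u) = vadd u (om u) := by
  have h := forall_of_allN _ om_all u
  rw [chkOm, Bool.and_eq_true, beq_iff_eq, beq_iff_eq] at h
  exact Fin.ext (by rw [om_val, vadd_val, om_val, h.1])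

theorem om_om_om (u : Fin 4096) : om (om (om u)) = u := by
  have h := forall_of_allN _ om_all u
  rw [chkOm, Bool.and_eq_true, beq_iff_eq, beq_iff_eq] at h
  exact Fin.ext (by rw [om_val, om_val, om_val, h.2])

end CfsgLib.LargeFischer60
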