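import Cfsg.Agent.LargeFischer60.Finite
import Cfsg.Agent.LargeExtraspecial.Pair

/-!
Large Fischer type: the interface to the six-dimensional space of `Q` modulo its centre, written
on subgroups of `G`, and the induced action of `C(z)`.
-/

set_option autoImplicit false

namespace CfsgLib.LargeFischer60

open CfsgLib.LargeFischer85
open CfsgLib.LargeExtraspecial (Setting zOf mem_zOf)

variable {G : Type*} [Group G]

/-- The centralizer of one element. -/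
abbrev cz (z : G) : Subgroup G := Subgroup.centralizer ({z} : Set G)

theorem mem_cz {z h : G} : h ∈ cz z ↔ h * z = z * h := Subgroup.mem_centralizer_singleton_iff

theorem conj_eq_of_mem_cz {z h : G} (hh : h ∈ cz z) : h * z * h⁻¹ = z := by
  rw [mem_cz.1 hh, mul_inv_cancel_right]

theorem mem_cz_of_conj {z h : G} (e : h * z * h⁻¹ = z) : h ∈ cz z :=
  mem_cz.2 (mul_inv_eq_iff_eq_mul.1 e)

/-- What is used on `Q` and the action of `C(z)` on it. -/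
structure Frame (Qz : Subgroup G) (z : G) (pr : G → Fin 4096) (k : ZMod 3) : Prop where
  setting : Setting Qz z
  card : Nat.card ↥Qz = 2 ^ 13
  mul : ∀ a ∈ Qz, ∀ b ∈ Qz, pr (a * b) = vadd (pr a) (pr b)
  ker : ∀ a ∈ Qz, pr a = 0 ↔ a = 1 ∨ a = z
  surj : ∀ v, ∃ a ∈ Qz, pr a = v
  comm : ∀ a ∈ Qz, ∀ b ∈ Qz, a * b = b * a ↔ orth (pr a) (pr b)
  sq : ∀ a ∈ Qz, a * a = 1 ↔ sing (pr a)
  faithful : ∀ h ∈ cz z, (∀ a ∈ Qz, pr (h * a * h⁻¹) = pr a) → h ∈ Qz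
  semi : ∀ h ∈ cz z,
    (∀ a ∈ Qz, ∀ b ∈ Qz, pr b = om (pr a) → pr (h * b * h⁻¹) = om (pr (h * a * h⁻¹))) ∨
    (∀ a ∈ Qz, ∀ b ∈ Qz, pr b = om (pr a) → pr (h * b * h⁻¹) = om (om (pr (h * a * h⁻¹))))
  scalar : ∃ x ∈ cz z, ∀ a ∈ Qz, pr (x * a * x⁻¹) = om (pr a)
  gens : ∀ i, ∃ m ∈ cz z, ∀ a ∈ Qz, pr (m * a * m⁻¹) = gk k i (pr a)

theorem vadd_self (a : Fin 4096) : vadd a a = 0 := Fin.ext (by rw [vadd_val, Nat.xor_self]; rfl)

theorem vadd_comm (a b : Fin 4096) : vadd a b = vadd b a :=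
  Fin.ext (by rw [vadd_val, vadd_val, Nat.xor_comm])

theorem vadd_assoc (a b c : Fin 4096) : vadd (vadd a b) c = vadd a (vadd b c) :=
  Fin.ext (by simp only [vadd_val, Nat.xor_assoc])

theorem vadd_zero (a : Fin 4096) : vadd a 0 = a := Fin.ext (by rw [vadd_val]; exact Nat.xor_zero _)

theorem vadd_cancel (a b : Fin 4096) : vadd (vadd a b) b = a := by
  rw [vadd_assoc, vadd_self, vadd_zero]

theorem vadd_eq_zero {a b : Fin 4096} (h : vadd a b = 0) : a = b := by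
  rw [← vadd_cancel a b, h, vadd_comm, vadd_zero]

theorem vadd_vadd_vadd (a b c d : Fin 4096) :
    vadd (vadd a b) (vadd c d) = vadd (vadd a c) (vadd b d) := by
  rw [vadd_assoc, vadd_assoc, ← vadd_assoc b, vadd_comm b c, vadd_assoc]

namespace Frame

variable {Qz : Subgroup G} {z : G} {pr : G → Fin 4096} {k : ZMod 3} (hF : Frame Qz z pr k)
include hF

omit hF in
theorem z_mem_cz : z ∈ cz z := mem_cz.2 rfl

theorem le_cz : Qz ≤ cz z := fun _ ha => mem_cz.2 (hF.setting.comm ha)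

theorem conj_mem {h a : G} (hh : h ∈ cz z) (ha : a ∈ Qz) : h * a * h⁻¹ ∈ Qz :=
  (hF.setting.normalized h (mem_cz.1 hh) a).1 ha

theorem pr_z : pr z = 0 := (hF.ker z hF.setting.z_mem).2 (Or.inr rfl)

theorem pr_one : pr 1 = 0 := (hF.ker 1 Qz.one_mem).2 (Or.inl rfl)

theorem pr_inv {a : G} (ha : a ∈ Qz) : pr a⁻¹ = pr a :=
  vadd_eq_zero (by rw [← hF.mul _ (Qz.inv_mem ha) _ ha, inv_mul_cancel, hF.pr_one])

theorem eq_or {a b : G} (ha : a ∈ Qz) (hb : b ∈ Qz) (h : pr a = pr b) : b = a ∨ b = z * a := by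
  have h0 : pr (b * a⁻¹) = 0 := by
    rw [hF.mul _ hb _ (Qz.inv_mem ha), hF.pr_inv ha, h, vadd_self]
  rcases (hF.ker _ (Qz.mul_mem hb (Qz.inv_mem ha))).1 h0 with e | e
  · exact Or.inl (mul_inv_eq_one.1 e)
  · exact Or.inr (mul_inv_eq_iff_eq_mul.1 e)

theorem pr_z_mul {a : G} (ha : a ∈ Qz) : pr (z * a) = pr a := by
  rw [hF.mul _ hF.setting.z_mem _ ha, hF.pr_z, vadd_comm, vadd_zero]

theorem pr_conj_of_mem {q a : G} (hq : q ∈ Qz) (ha : a ∈ Qz) : pr (q * a * q⁻¹) = pr a := by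
  rw [hF.mul _ (Qz.mul_mem hq ha) _ (Qz.inv_mem hq), hF.mul _ hq _ ha, hF.pr_inv hq,
    vadd_comm (pr q), vadd_cancel]

/-- The action of `C(z)` on vectors. -/
noncomputable def ac (h : G) (v : Fin 4096) : Fin 4096 :=
  pr (h * (hF.surj v).choose * h⁻¹)

theorem ac_pr {h a : G} (hh : h ∈ cz z) (ha : a ∈ Qz) : pr (h * a * h⁻¹) = hF.ac h (pr a) := by
  obtain ⟨hb, hb'⟩ := (hF.surj (pr a)).choose_spec
  unfold Frame.ac
  rcases hF.eq_or hb ha hb' with e | e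
  · rw [← e]
  · conv_lhs => rw [e]
    rw [show h * (z * (hF.surj (pr a)).choose) * h⁻¹ =
      h * z * h⁻¹ * (h * (hF.surj (pr a)).choose * h⁻¹) by group, conj_eq_of_mem_cz hh,
      hF.pr_z_mul (hF.conj_mem hh hb)]

theorem ac_mul {g h : G} (hg : g ∈ cz z) (hh : h ∈ cz z) (v : Fin 4096) :
    hF.ac (g * h) v = hF.ac g (hF.ac h v) := by
  obtain ⟨a, ha, rfl⟩ := hF.surj v
  rw [← hF.ac_pr hh ha, ← hF.ac_pr hg (hF.conj_mem hh ha), ← hF.ac_pr ((cz z).mul_mem hg hh) ha]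
  congr 1
  group

theorem ac_one (v : Fin 4096) : hF.ac 1 v = v := by
  obtain ⟨a, ha, rfl⟩ := hF.surj v
  rw [← hF.ac_pr (cz z).one_mem ha]
  simp

theorem ac_inv_ac {h : G} (hh : h ∈ cz z) (v : Fin 4096) : hF.ac h⁻¹ (hF.ac h v) = v := by
  rw [← hF.ac_mul ((cz z).inv_mem hh) hh, inv_mul_cancel, hF.ac_one]

theorem ac_ac_inv {h : G} (hh : h ∈ cz z) (v : Fin 4096) : hF.ac h (hF.ac h⁻¹ v) = v := by
  rw [← hF.ac_mul hh ((cz z).inv_mem hh), mul_inv_cancel, hF.ac_one]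

theorem ac_add {h : G} (hh : h ∈ cz z) (u v : Fin 4096) :
    hF.ac h (vadd u v) = vadd (hF.ac h u) (hF.ac h v) := by
  obtain ⟨a, ha, rfl⟩ := hF.surj u
  obtain ⟨b, hb, rfl⟩ := hF.surj v
  rw [← hF.mul _ ha _ hb, ← hF.ac_pr hh ha, ← hF.ac_pr hh hb, ← hF.ac_pr hh (Qz.mul_mem ha hb),
    ← hF.mul _ (hF.conj_mem hh ha) _ (hF.conj_mem hh hb)]
  congr 1
  group

theorem ac_zero {h : G} (hh : h ∈ cz z) : hF.ac h 0 = 0 := by
  rw [← vadd_self 0, hF.ac_add hh, vadd_self, vadd_self]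

theorem ac_of_mem {q : G} (hq : q ∈ Qz) (v : Fin 4096) : hF.ac q v = v := by
  obtain ⟨a, ha, rfl⟩ := hF.surj v
  rw [← hF.ac_pr (hF.le_cz hq) ha, hF.pr_conj_of_mem hq ha]

theorem ac_orth {h : G} (hh : h ∈ cz z) (u v : Fin 4096) :
    orth (hF.ac h u) (hF.ac h v) ↔ orth u v := by
  obtain ⟨a, ha, rfl⟩ := hF.surj u
  obtain ⟨b, hb, rfl⟩ := hF.surj v
  rw [← hF.ac_pr hh ha, ← hF.ac_pr hh hb, ← hF.comm _ (hF.conj_mem hh ha) _ (hF.conj_mem hh hb),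
    ← hF.comm _ ha _ hb]
  have e1 : h * a * h⁻¹ * (h * b * h⁻¹) = h * (a * b) * h⁻¹ := by group
  have e2 : h * b * h⁻¹ * (h * a * h⁻¹) = h * (b * a) * h⁻¹ := by group
  rw [e1, e2, mul_left_inj, mul_right_inj]

theorem faithful' {h : G} (hh : h ∈ cz z) (e : ∀ v, hF.ac h v = v) : h ∈ Qz :=
  hF.faithful h hh fun a ha => by rw [hF.ac_pr hh ha, e]

theorem mem_of_ac_eq {g h : G} (hg : g ∈ cz z) (hh : h ∈ cz z)
    (e : ∀ v, hF.ac g v = hF.ac h v) : g⁻¹ * h ∈ Qz :=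
  hF.faithful' ((cz z).mul_mem ((cz z).inv_mem hg) hh) fun v => by
    rw [hF.ac_mul ((cz z).inv_mem hg) hh, ← e, hF.ac_inv_ac hg]

theorem orth_comm {u v : Fin 4096} : orth u v ↔ orth v u := by
  obtain ⟨a, ha, rfl⟩ := hF.surj u
  obtain ⟨b, hb, rfl⟩ := hF.surj v
  rw [← hF.comm _ ha _ hb, ← hF.comm _ hb _ ha, eq_comm]

theorem orth_self (u : Fin 4096) : orth u u := by
  obtain ⟨a, ha, rfl⟩ := hF.surj u
  exact (hF.comm _ ha _ ha).1 rfl

theorem orth_zero (u : Fin 4096) : orth u 0 := by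
  obtain ⟨a, ha, rfl⟩ := hF.surj u
  rw [← hF.pr_one]
  exact (hF.comm _ ha _ Qz.one_mem).1 (by rw [mul_one, one_mul])

theorem conj_eq_mul {a b : G} (ha : a ∈ Qz) (hb : b ∈ Qz) (h : ¬ orth (pr a) (pr b)) :
    a * b * a⁻¹ = z * b := by
  rcases LargeExtraspecial.conj_mem_two hF.setting.extraspecial hF.setting.mem_iff ha hb with e | e
  · exact absurd ((hF.comm _ ha _ hb).1 (mul_inv_eq_iff_eq_mul.1 e)) h
  · exact e

theorem orth_add_left (u v w : Fin 4096) : orth (vadd u v) w ↔ (orth u w ↔ orth v w) := by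
  obtain ⟨a, ha, rfl⟩ := hF.surj u
  obtain ⟨b, hb, rfl⟩ := hF.surj v
  obtain ⟨c, hc, rfl⟩ := hF.surj w
  rw [← hF.mul _ ha _ hb]
  have hz := hF.setting.z_mul_z
  have key : ∀ {p : G}, p ∈ Qz → (orth (pr p) (pr c) → p * c * p⁻¹ = c) ∧
      (¬ orth (pr p) (pr c) → p * c * p⁻¹ = z * c) := fun {p} hp =>
    ⟨fun e => by rw [(hF.comm _ hp _ hc).2 e, mul_inv_cancel_right], hF.conj_eq_mul hp hc⟩
  have hne : z * c ≠ c := fun e => hF.setting.z_ne_one (mul_eq_right.1 e)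
  have hab : a * b * c * (a * b)⁻¹ = a * (b * c * b⁻¹) * a⁻¹ := by group
  have hzc : a * (z * c) * a⁻¹ = z * (a * c * a⁻¹) := by
    rw [← mul_assoc a, hF.setting.comm ha]; group
  obtain ⟨f1, f2⟩ := key (Qz.mul_mem ha hb)
  obtain ⟨a1, a2⟩ := key ha
  obtain ⟨b1, b2⟩ := key hb
  by_cases p : orth (pr a) (pr c) <;> by_cases q : orth (pr b) (pr c)
  · simp only [p, q, iff_self, iff_true]
    by_contra r
    exact hne ((f2 r).symm.trans (by rw [hab, b1 q, a1 p]))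
  · simp only [p, q, iff_false, not_true_eq_false, iff_false]
    exact fun r => hne ((f1 r).symm.trans (by rw [hab, b2 q, hzc, a1 p])).symm
  · simp only [p, q, iff_true, iff_false]
    exact fun r => hne ((f1 r).symm.trans (by rw [hab, b1 q, a2 p])).symm
  · simp only [p, q, iff_self, iff_true]
    by_contra r
    exact hne ((f2 r).symm.trans (by rw [hab, b2 q, hzc, a2 p, ← mul_assoc, hz, one_mul]))

theorem orth_add_right (u v w : Fin 4096) : orth u (vadd v w) ↔ (orth u v ↔ orth u w) := by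
  rw [hF.orth_comm, hF.orth_add_left, hF.orth_comm (u := v), hF.orth_comm (u := w)]

theorem om_add (u v : Fin 4096) : om (vadd u v) = vadd (om u) (om v) := by
  obtain ⟨x, hx, hxa⟩ := hF.scalar
  have e : ∀ w, hF.ac x w = om w := fun w => by
    obtain ⟨a, ha, rfl⟩ := hF.surj w
    rw [← hF.ac_pr hx ha, hxa a ha]
  rw [← e, ← e, ← e, hF.ac_add hx]

theorem orth_om (u v : Fin 4096) : orth (om u) (om v) ↔ orth u v := by
  obtain ⟨x, hx, hxa⟩ := hF.scalar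
  have e : ∀ w, hF.ac x w = om w := fun w => by
    obtain ⟨a, ha, rfl⟩ := hF.surj w
    rw [← hF.ac_pr hx ha, hxa a ha]
  rw [← e, ← e, hF.ac_orth hx]

theorem exists_scalar : ∃ x ∈ cz z, ∀ w, hF.ac x w = om w := by
  obtain ⟨x, hx, hxa⟩ := hF.scalar
  refine ⟨x, hx, fun w => ?_⟩
  obtain ⟨a, ha, rfl⟩ := hF.surj w
  rw [← hF.ac_pr hx ha, hxa a ha]

/-- Commuting with the scalar. -/
def Lin (h : G) : Prop := ∀ v, hF.ac h (om v) = om (hF.ac h v)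

/-- Inverting the scalar. -/
def Anti (h : G) : Prop := ∀ v, hF.ac h (om v) = om (om (hF.ac h v))

theorem lin_or_anti {h : G} (hh : h ∈ cz z) : hF.Lin h ∨ hF.Anti h := by
  rcases hF.semi h hh with e | e
  on_goal 1 => left; intro v
  on_goal 2 => right; intro v
  all_goals
    obtain ⟨a, ha, rfl⟩ := hF.surj v
    obtain ⟨b, hb, hb'⟩ := hF.surj (om (pr a))
    rw [← hb', ← hF.ac_pr hh hb, ← hF.ac_pr hh ha]
    exact e a ha b hb hb'

theorem not_lin_anti {h : G} (hh : h ∈ cz z) (h1 : hF.Lin h) (h2 : hF.Anti h) : False := by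
  obtain ⟨-, -, -, -, -, -, hne, -⟩ := vk_facts k
  have e := (h1 (hF.ac h⁻¹ (vk k))).symm.trans (h2 (hF.ac h⁻¹ (vk k)))
  rw [hF.ac_ac_inv hh] at e
  exact hne e.symm

theorem lin_one : hF.Lin 1 := fun v => by rw [hF.ac_one, hF.ac_one]

theorem lin_mul {g h : G} (hg : g ∈ cz z) (hh : h ∈ cz z) (h1 : hF.Lin g) (h2 : hF.Lin h) :
    hF.Lin (g * h) := fun v => by rw [hF.ac_mul hg hh, hF.ac_mul hg hh, h2, h1]

theorem lin_mul_anti {g h : G} (hg : g ∈ cz z) (hh : h ∈ cz z) (h1 : hF.Anti g) (h2 : hF.Anti h) :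
    hF.Lin (g * h) := fun v => by
  rw [hF.ac_mul hg hh, hF.ac_mul hg hh, h2, h1, h1, om_om_om]

theorem lin_inv {h : G} (hh : h ∈ cz z) (h1 : hF.Lin h) : hF.Lin h⁻¹ := fun v => by
  have e := h1 (hF.ac h⁻¹ v)
  rw [hF.ac_ac_inv hh] at e
  rw [← e, hF.ac_inv_ac hh]

theorem lin_of_mem {q : G} (hq : q ∈ Qz) : hF.Lin q := fun v => by
  rw [hF.ac_of_mem hq, hF.ac_of_mem hq]

/-- The linear part of `C(z)`. -/
def linSub : Subgroup G where
  carrier := {h | h ∈ cz z ∧ hF.Lin h}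
  one_mem' := ⟨(cz z).one_mem, hF.lin_one⟩
  mul_mem' := fun ha hb => ⟨(cz z).mul_mem ha.1 hb.1, hF.lin_mul ha.1 hb.1 ha.2 hb.2⟩
  inv_mem' := fun ha => ⟨(cz z).inv_mem ha.1, hF.lin_inv ha.1 ha.2⟩

theorem lin_of_fix {h : G} (hh : h ∈ cz z) (h1 : hF.ac h (vk k) = vk k)
    (h2 : hF.ac h (om (vk k)) = om (vk k)) : hF.Lin h := by
  rcases hF.lin_or_anti hh with e | e
  · exact e
  · have := (e (vk k))
    rw [h1, h2] at this
    exact absurd this.symm (vk_facts k).2.2.2.2.2.2.1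

theorem gk_add (i : Fin 2) (u v : Fin 4096) : gk k i (vadd u v) = vadd (gk k i u) (gk k i v) := by
  obtain ⟨m, hm, hma⟩ := hF.gens i
  have e : ∀ w, hF.ac m w = gk k i w := fun w => by
    obtain ⟨a, ha, rfl⟩ := hF.surj w
    rw [← hF.ac_pr hm ha, hma a ha]
  rw [← e, ← e, ← e, hF.ac_add hm]

end Frame

end CfsgLib.LargeFischer60
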