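import Cfsg.Agent.LargeFischer60.Split
import Cfsg.Agent.LargeFischer85.Frame
import Cfsg.Agent.LargeFischer85.Orbits
import Cfsg.Agent.LargeFischer88.Conjugates
import Cfsg.Agent.S5441
import Cfsg.Agent.S5442

/-!
Large Fischer type: the interface of the subgroup of order eight, derived from the frame.
-/

set_option autoImplicit false

namespace CfsgLib.LargeFischer60

open Cfsg CfsgLib.LargeFischer85

variable {G : Type*} [Group G] {z : G}
  {Q : Subgroup (Subgroup.centralizer ({z} : Set G))}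

/-- The vector of an element of `Q`, as a number. -/
noncomputable def readVec (φ : Fin 4096 ≃ V) (pr : ↥Q → V) (a : G) : Fin 4096 := by
  classical exact
  if h : ∃ hc : a ∈ Subgroup.centralizer ({z} : Set G),
      (⟨a, hc⟩ : Subgroup.centralizer ({z} : Set G)) ∈ Q
    then φ.symm (pr ⟨⟨a, h.choose⟩, h.choose_spec⟩) else 0

theorem readVec_coe (φ : Fin 4096 ≃ V) (pr : ↥Q → V) (a : ↥Q) :
    readVec φ pr ((a : Subgroup.centralizer ({z} : Set G)) : G) = φ.symm (pr a) := by
  rw [readVec, dif_pos ⟨a.1.2, a.2⟩]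

theorem zmod_two_cases : ∀ u : ZMod 2, u = 0 ∨ u = 1 := by decide

theorem orth_iff_sing (a b : Fin 4096) :
    orth a b ↔ (sing (vadd a b) ↔ (sing a ↔ sing b)) := by
  unfold orth sing
  omega

theorem vadd_symm {φ : Fin 4096 ≃ V} (h : ∀ a b, φ (vadd a b) = φ a + φ b) (u v : V) :
    φ.symm (u + v) = vadd (φ.symm u) (φ.symm v) :=
  φ.injective (by rw [h, Equiv.apply_symm_apply, Equiv.apply_symm_apply, Equiv.apply_symm_apply])

variable [Finite G] [Q.Normal] {q : V → ZMod 2} {pr : ↥Q → V}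
  {act : (↥(Subgroup.centralizer ({z} : Set G)) ⧸ Q) →* Equiv.Perm V}
  {Mb Cb : Subgroup (↥(Subgroup.centralizer ({z} : Set G)) ⧸ Q)} {φ : Fin 4096 ≃ V} {k : ZMod 3}

theorem read_conj (hA : IsAction z Q q pr act) {h a : G}
    (hh : h ∈ cz z) (ha : a ∈ Q.map (Subgroup.centralizer ({z} : Set G)).subtype) :
    readVec φ pr (h * a * h⁻¹) = frameHom φ act (QuotientGroup.mk' Q ⟨h, hh⟩) (readVec φ pr a) := by
  obtain ⟨b, hb, rfl⟩ := ha
  let b' : ↥Q := ⟨⟨h, hh⟩ * b * (⟨h, hh⟩ : Subgroup.centralizer ({z} : Set G))⁻¹,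
    Subgroup.Normal.conj_mem inferInstance _ hb _⟩
  have e := hA.act_pr ⟨h, hh⟩ ⟨b, hb⟩ b' rfl
  rw [show h * Subgroup.subtype _ b * h⁻¹ = ((b' : Subgroup.centralizer ({z} : Set G)) : G) from rfl,
    readVec_coe, show Subgroup.subtype _ b =
      (((⟨b, hb⟩ : ↥Q) : Subgroup.centralizer ({z} : Set G)) : G) from rfl,
    readVec_coe, frameHom_apply, Equiv.apply_symm_apply, e]

theorem frame_of (hF : IsOfLargeFischerTypeAt z Q) (hA : IsAction z Q q pr act)
    (hfr : IsFrame q act Mb Cb φ) (k : ZMod 3) :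
    Frame (Q.map (Subgroup.centralizer ({z} : Set G)).subtype) z (readVec φ pr) k := by
  classical
  set Qz := Q.map (Subgroup.centralizer ({z} : Set G)).subtype
  have hS := setting hF
  have hmul : ∀ a ∈ Qz, ∀ b ∈ Qz,
      readVec φ pr (a * b) = vadd (readVec φ pr a) (readVec φ pr b) := by
    rintro _ ⟨a, ha, rfl⟩ _ ⟨b, hb, rfl⟩
    change readVec φ pr (((⟨a, ha⟩ * ⟨b, hb⟩ : ↥Q) : Subgroup.centralizer ({z} : Set G)) : G) =
      vadd (readVec φ pr (((⟨a, ha⟩ : ↥Q) : Subgroup.centralizer ({z} : Set G)) : G))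
        (readVec φ pr (((⟨b, hb⟩ : ↥Q) : Subgroup.centralizer ({z} : Set G)) : G))
    rw [readVec_coe, readVec_coe, readVec_coe, hA.pr_mul, vadd_symm hfr.map_vadd]
  have hsq : ∀ a ∈ Qz, a * a = 1 ↔ sing (readVec φ pr a) := by
    rintro _ ⟨a, ha, rfl⟩
    rw [show Subgroup.subtype _ a =
      (((⟨a, ha⟩ : ↥Q) : Subgroup.centralizer ({z} : Set G)) : G) from rfl, readVec_coe,
      hfr.sing_iff, Equiv.apply_symm_apply, hA.pr_sq]
    exact ⟨fun e => Subtype.ext (Subtype.ext e),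
      fun e => congrArg (fun y : ↥Q => ((y : Subgroup.centralizer ({z} : Set G)) : G)) e⟩
  obtain ⟨c, hc, hcn⟩ := hfr.scalar
  refine
    { setting := hS
      card := card_map hF.1.2.2.2.1
      mul := hmul
      ker := ?_
      surj := ?_
      comm := ?_
      sq := hsq
      faithful := ?_
      semi := ?_
      scalar := ?_
      gens := ?_ }
  · rintro _ ⟨a, ha, rfl⟩
    rw [show Subgroup.subtype _ a =
      (((⟨a, ha⟩ : ↥Q) : Subgroup.centralizer ({z} : Set G)) : G) from rfl, readVec_coe,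
      Equiv.symm_apply_eq, hfr.map_zero, hA.pr_zero]
  · intro v
    obtain ⟨a, ha⟩ := hA.pr_surj (φ v)
    exact ⟨_, ⟨a, a.2, rfl⟩, by
      show readVec φ pr ((a : Subgroup.centralizer ({z} : Set G)) : G) = v
      rw [readVec_coe, ha, Equiv.symm_apply_apply]⟩
  · intro a ha b hb
    rw [orth_iff_sing, ← hmul a ha b hb, ← hsq _ (Qz.mul_mem ha hb), ← hsq a ha, ← hsq b hb]
    have hzz := hS.z_mul_z
    have hab : ∀ p ∈ Qz, p * p = 1 ∨ p * p = z := fun p hp =>
      (hS.mem_iff _).1 (LargeExtraspecial.sq_mem hS.extraspecial hp)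
    constructor
    · intro e
      have e2 : a * b * (a * b) = a * a * (b * b) := (Commute.symm e).mul_mul_mul_comm a b
      rw [e2]
      rcases hab a ha with h1 | h1 <;> rcases hab b hb with h2 | h2 <;>
        simp [h1, h2, hzz, hS.z_ne_one]
    · intro e
      rcases LargeExtraspecial.conj_mem_two hS.extraspecial hS.mem_iff hb ha with h | h
      · exact (mul_inv_eq_iff_eq_mul.1 h).symm
      · exfalso
        have hba : b * a = z * a * b := mul_inv_eq_iff_eq_mul.1 h
        have e2 : a * b * (a * b) = z * (a * a * (b * b)) := by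
          calc a * b * (a * b) = a * (b * a) * b := by group
            _ = a * z * (a * b) * b := by rw [hba]; group
            _ = z * (a * a * (b * b)) := by rw [hS.comm ha]; group
        rw [e2] at e
        rcases hab a ha with h1 | h1 <;> rcases hab b hb with h2 | h2 <;>
          simp [h1, h2, hzz, hS.z_ne_one] at e
  · intro h hh e
    have h1 : act (QuotientGroup.mk' Q ⟨h, hh⟩) = 1 := Equiv.ext fun v => by
      obtain ⟨a, rfl⟩ := hA.pr_surj v
      have e1 := e _ ⟨a, a.2, rfl⟩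
      rw [read_conj hA hh ⟨a, a.2, rfl⟩,
        show Subgroup.subtype _ (a : Subgroup.centralizer ({z} : Set G)) =
          ((a : Subgroup.centralizer ({z} : Set G)) : G) from rfl, readVec_coe, frameHom_apply,
        Equiv.apply_symm_apply] at e1
      exact φ.symm.injective e1
    exact ⟨⟨h, hh⟩, (QuotientGroup.eq_one_iff _).1 (hA.act_inj (h1.trans (map_one act).symm)), rfl⟩
  · intro h hh
    set kk := QuotientGroup.mk' Q ⟨h, hh⟩
    have := hfr.normal_Cb
    have hne : c ≠ 1 := fun e => (vk_facts k).2.2.2.1 (by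
      have := hcn (vk k); rw [e, map_one] at this; exact this.symm)
    have hmem : kk * c * kk⁻¹ ∈ Cb := hfr.normal_Cb.conj_mem c hc kk
    have : Fact (Nat.Prime 3) := ⟨Nat.prime_three⟩
    obtain ⟨j, hj⟩ := (Subgroup.mem_zpowers_iff).1
      (mem_zpowers_of_prime_card (p := 3) hfr.card_Cb (g := (⟨c, hc⟩ : ↥Cb))
        (g' := (⟨_, hmem⟩ : ↥Cb)) fun e => hne (congrArg Subtype.val e))
    have hj' : c ^ j = kk * c * kk⁻¹ := congrArg Subtype.val hj
    have hc3 : c ^ 3 = 1 := by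
      have e := pow_card_eq_one' (x := (⟨c, hc⟩ : ↥Cb))
      rw [hfr.card_Cb] at e
      exact congrArg Subtype.val e
    obtain ⟨i, hi, hci⟩ : ∃ i : ℕ, i < 3 ∧ c ^ j = c ^ i := by
      refine ⟨(j % 3).toNat, by omega, ?_⟩
      rw [← zpow_natCast, Int.toNat_of_nonneg (Int.emod_nonneg j (by norm_num))]
      exact zpow_eq_zpow_emod' j hc3
    have key : ∀ v, frameHom φ act kk (om v) =
        frameHom φ act (c ^ i) (frameHom φ act kk v) := fun v => by
      rw [← hcn, ← Equiv.Perm.mul_apply, ← map_mul, ← Equiv.Perm.mul_apply, ← map_mul, ← hci, hj',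
        inv_mul_cancel_right]
    have hsem : ∀ (f : Fin 4096 → Fin 4096), (∀ u, frameHom φ act (c ^ i) u = f u) →
        ∀ a ∈ Qz, ∀ b ∈ Qz, readVec φ pr b = om (readVec φ pr a) →
          readVec φ pr (h * b * h⁻¹) = f (readVec φ pr (h * a * h⁻¹)) := by
      intro f hf a ha b hb e
      rw [read_conj hA hh ha, read_conj hA hh hb, e, key, hf]
    rcases (by omega : i = 0 ∨ i = 1 ∨ i = 2) with rfl | rfl | rfl
    · exfalso
      rw [hci, pow_zero] at hj'
      exact hne (by simpa using hj'.symm)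
    · exact Or.inl (hsem om fun u => by rw [pow_one, hcn])
    · exact Or.inr (hsem (fun u => om (om u)) fun u => by
        rw [pow_two, map_mul, Equiv.Perm.mul_apply, hcn, hcn])
  · obtain ⟨⟨x, hx⟩, rfl⟩ := QuotientGroup.mk'_surjective Q c
    exact ⟨x, hx, fun a ha => by rw [read_conj hA hx ha, hcn]⟩
  · intro i
    obtain ⟨_, ⟨m, -, rfl⟩, hm⟩ := hfr.group.mon (sk i) (sk_sign i) (ek k i) (ek_sum k i)
    obtain ⟨⟨y, hy⟩, rfl⟩ := QuotientGroup.mk'_surjective Q m
    exact ⟨y, hy, fun a ha => by rw [read_conj hA hy ha, hm]; rfl⟩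

/-- The configuration exists. -/
theorem exists_cfg (hF : IsOfLargeFischerTypeAt z Q) :
    ∃ (pr : G → Fin 4096) (k : ZMod 3) (s g x : G),
      Cfg (Q.map (Subgroup.centralizer ({z} : Set G)).subtype) z pr k s g x := by
  obtain ⟨q, pr, act, hA⟩ := CfsgLib.LargeFischer85.exists_action hF
  obtain ⟨Mb, Cb, φ, hfr⟩ := CfsgLib.LargeFischer85.exists_frame hF hA
  obtain ⟨k, hk⟩ := CfsgLib.LargeFischer85.exists_orbit_class hfr.group
  have F := frame_of hF hA hfr k
  obtain ⟨_, ⟨a, ha, rfl⟩, hap⟩ := F.surj (vk k)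
  obtain ⟨x, hx, hxa⟩ := F.scalar
  set sQ : ↥Q := ⟨a, ha⟩
  have hap' : φ.symm (pr sQ) = vk k := by
    rw [← readVec_coe]; exact hap
  have hs1 : (a : G) ≠ z := fun e => by
    have e0 := F.pr_z
    rw [show readVec φ pr z = readVec φ pr (a : G) by rw [e]] at e0
    exact (vk_facts k).2.1 (hap.symm.trans e0)
  have hs : IsConj z (a : G) := (LargeFischer88.isConj_iff_inTwo hF hA hfr hk sQ hs1).2
    (by rw [hap']; exact (vk_facts k).1)
  obtain ⟨g, hg⟩ := isConj_iff.1 hs
  obtain ⟨-, hI, hEX, -, -, -, hn, ⟨e⟩⟩ :=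
    Cfsg.Agent.S5442.result z Q hF (a : G) ⟨a.2, ha⟩ hs hs1 g hg _ _ rfl rfl
  refine ⟨readVec φ pr, k, (a : G), g, x,
    { frame := F
      orbit := ?_
      s_mem := ⟨a, ha, rfl⟩
      s_pr := hap
      g_conj := hg
      x_mem := hx
      x_ac := hxa
      pair_card := hI
      pair_quot := ?_ }⟩
  · rintro _ ⟨u, hu, rfl⟩ _ ⟨v, hv, rfl⟩ h1 h2 h3 h4
    exact Cfsg.Agent.S5441.result z Q hF _ _ ⟨u.2, hu⟩ ⟨v.2, hv⟩ h1 h2 h3 h4
  · set X : Subgroup (↥(Subgroup.centralizer ({z} : Set G)) ⧸ Q) :=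
      (((Subgroup.centralizer ({z} : Set G)) ⊓ Subgroup.centralizer ({(a : G)} : Set G)).subgroupOf
        (Subgroup.centralizer ({z} : Set G))).map (QuotientGroup.mk' Q) with hX
    set E := ((((Q.map (Subgroup.centralizer ({z} : Set G)).subtype)).map
      (MulAut.conj g).toMonoidHom ⊓ Subgroup.centralizer ({z} : Set G)).subgroupOf
        (Subgroup.centralizer ({z} : Set G))).map (QuotientGroup.mk' Q) with hE
    have := hn
    let j : ↥(cz z ⊓ cz (a : G)) →* ↥X :=
      ((QuotientGroup.mk' Q).comp (Subgroup.inclusion inf_le_left)).codRestrict X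
        fun c => ⟨Subgroup.inclusion inf_le_left c, c.2, rfl⟩
    have hj : Function.Surjective j := by
      rintro ⟨_, ⟨c, hc, rfl⟩⟩
      exact ⟨⟨c, hc⟩, Subtype.ext rfl⟩
    refine ⟨e.toMonoidHom.comp ((QuotientGroup.mk' (E.subgroupOf X)).comp j),
      e.surjective.comp ((QuotientGroup.mk'_surjective _).comp hj), fun c => ?_⟩
    rw [MonoidHom.comp_apply, MulEquiv.coe_toMonoidHom, map_eq_one_iff e e.injective,
      MonoidHom.comp_apply, QuotientGroup.mk'_apply, QuotientGroup.eq_one_iff,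
      Subgroup.mem_subgroupOf]
    constructor
    · rintro ⟨b, hb, hbe⟩
      refine ⟨b, hb.1, mem_cz.1 b.2, ?_⟩
      refine ⟨⟨(c : G), c.2.1⟩ * b⁻¹, ?_, rfl⟩
      refine (QuotientGroup.eq_one_iff _).1 ?_
      rw [← QuotientGroup.mk'_apply, map_mul, map_inv, hbe]
      exact mul_inv_cancel _
    · rintro ⟨b, hb, hbz, ⟨y, hy, hye⟩⟩
      refine ⟨⟨b, mem_cz.2 hbz⟩, ⟨hb, mem_cz.2 hbz⟩, ?_⟩
      show QuotientGroup.mk' Q ⟨b, mem_cz.2 hbz⟩ = QuotientGroup.mk' Q ⟨(c : G), c.2.1⟩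
      refine ((mul_inv_eq_one).1 ?_).symm
      rw [← map_inv, ← map_mul, QuotientGroup.mk'_apply, QuotientGroup.eq_one_iff]
      rw [show (⟨(c : G), c.2.1⟩ : Subgroup.centralizer ({z} : Set G)) * ⟨b, mem_cz.2 hbz⟩⁻¹ = y from
        Subtype.ext hye.symm]
      exact hy

end CfsgLib.LargeFischer60
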