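import Cfsg.Agent.LargeFischer60.Eight
import Cfsg.Agent.Classical.Linear.Simple
import Cfsg.Agent.SmallIso.PSLThreeTwo

/-!
Large Fischer type: the normalizer of the subgroup of order eight induces its full automorphism
group `SL₃(2)`.
-/

set_option autoImplicit false

namespace CfsgLib.LargeFischer60

open Cfsg CfsgLib.LargeFischer85
open CfsgLib.LargeExtraspecial (Setting zOf mem_zOf)

/-- `SL₃(2)` is simple, being its own central quotient. -/
theorem isSimpleGroup_slt : IsSimpleGroup (Matrix.SpecialLinearGroup (Fin 3) (ZMod 2)) := by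
  have : Fact (Nat.Prime 2) := ⟨Nat.prime_two⟩
  have h2 : ∀ r : ZMod 2, r ^ 3 = 1 → r = 1 := by decide +revert
  have hc : Subgroup.center (Matrix.SpecialLinearGroup (Fin 3) (ZMod 2)) = ⊥ := by
    rw [Subgroup.eq_bot_iff_forall]
    intro x hx
    obtain ⟨r, hr, hrx⟩ := Matrix.SpecialLinearGroup.mem_center_iff.mp hx
    apply Subtype.ext
    rw [← hrx, h2 r (by simpa using hr)]
    simp
  have : IsSimpleGroup (Matrix.ProjectiveSpecialLinearGroup (Fin 3) (ZMod 2)) :=
    CfsgLib.Classical.Linear.isSimpleGroup_psl_fin (by norm_num) (by norm_num)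
  exact MulEquiv.isSimpleGroup (H := Matrix.ProjectiveSpecialLinearGroup (Fin 3) (ZMod 2))
    (QuotientGroup.quotientBot.symm.trans (QuotientGroup.quotientMulEquivOfEq hc.symm))

/-- A subgroup of `SL₃(2)` of order divisible by `84` is everything. -/
theorem eq_top_of_dvd (R : Subgroup (Matrix.SpecialLinearGroup (Fin 3) (ZMod 2)))
    (h : 84 ∣ Nat.card R) : R = ⊤ := by
  have : IsSimpleGroup (Matrix.SpecialLinearGroup (Fin 3) (ZMod 2)) := isSimpleGroup_slt
  have hm := R.card_mul_index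
  rw [CfsgLib.SmallIso.card_sl_three_two] at hm
  obtain ⟨m, hm'⟩ := h
  rw [hm', mul_assoc] at hm
  have h2 : m * R.index = 2 := by omega
  have : R.index = 1 ∨ R.index = 2 :=
    (Nat.dvd_prime Nat.prime_two).1 ⟨m, by rw [mul_comm]; exact h2.symm⟩
  rcases this with e | e
  · exact Subgroup.index_eq_one.1 e
  · rcases (Subgroup.normal_of_index_eq_two e).eq_bot_or_eq_top with e' | e'
    · rw [e', Subgroup.index_bot, CfsgLib.SmallIso.card_sl_three_two] at e
      omega
    · exact e'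

theorem pow_val_add {G : Type*} [Monoid G] {a : G} (h : a * a = 1) (i j : ZMod 2) :
    a ^ (i + j).val = a ^ i.val * a ^ j.val := by
  rw [ZMod.val_add, ← pow_add, ← pow_mod_orderOf a ((i.val + j.val) % 2),
    ← pow_mod_orderOf a (i.val + j.val), Nat.mod_mod_of_dvd _
      (orderOf_dvd_of_pow_eq_one (by rw [pow_two, h]))]

namespace Cfg

variable {G : Type*} [Group G] {Qz : Subgroup G} {z : G} {pr : G → Fin 4096} {k : ZMod 3}
  {s g x : G} (C : Cfg Qz z pr k s g x)

/-- The subgroup of order eight. -/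
abbrev VV : Subgroup G := C.frame.eight

/-- Its normalizer. -/
abbrev LL : Subgroup G := Subgroup.normalizer (C.VV : Set G)

/-- The coordinates. -/
def iota : Multiplicative (Fin 3 → ZMod 2) →* G :=
  MonoidHom.mk'
    (fun c => z ^ (c.toAdd 0).val * (s ^ (c.toAdd 1).val * (x * s * x⁻¹) ^ (c.toAdd 2).val))
    (fun a b => by
      have h1 : Commute z s := C.zs_comm
      have h2 : Commute z (x * s * x⁻¹) := (C.frame.setting.comm C.s'_mem).symm
      have h3 : Commute s (x * s * x⁻¹) := C.ss'_comm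
      simp only [toAdd_mul, Pi.add_apply, pow_val_add C.frame.setting.z_mul_z, pow_val_add C.s_sq,
        pow_val_add C.s'_sq]
      set t := x * s * x⁻¹
      generalize (a.toAdd 0).val = a₀
      generalize (a.toAdd 1).val = a₁
      generalize (a.toAdd 2).val = a₂
      generalize (b.toAdd 0).val = b₀
      generalize (b.toAdd 1).val = b₁
      generalize (b.toAdd 2).val = b₂
      rw [(h3.pow_pow b₁ a₂).mul_mul_mul_comm,
        ((h1.pow_pow b₀ a₁).mul_right (h2.pow_pow b₀ a₂)).mul_mul_mul_comm])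

theorem iota_apply (c : Fin 3 → ZMod 2) : C.iota (Multiplicative.ofAdd c) =
    z ^ (c 0).val * (s ^ (c 1).val * (x * s * x⁻¹) ^ (c 2).val) := rfl

include C

theorem iota_injective : Function.Injective C.iota := by
  have F := C.frame
  obtain ⟨-, hv, hwv, hne, hw2, -, -, -, hsum⟩ := vk_facts k
  refine (injective_iff_map_eq_one _).2 fun c hc => ?_
  have hz2 : z * z = 1 := F.setting.z_mul_z
  have e : ∀ i : Fin 3, c.toAdd i = 0 ∨ c.toAdd i = 1 := fun i => by
    generalize c.toAdd i = j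
    revert j
    decide
  have hval : (1 : ZMod 2).val = 1 := rfl
  have hval0 : (0 : ZMod 2).val = 0 := rfl
  rw [← ofAdd_toAdd c, C.iota_apply] at hc
  have hh : c.toAdd 0 = 0 ∧ c.toAdd 1 = 0 ∧ c.toAdd 2 = 0 := by
    rcases e 0 with e0 | e0 <;> rcases e 1 with e1 | e1 <;> rcases e 2 with e2 | e2 <;>
      simp only [e0, e1, e2, hval, hval0, pow_zero, pow_one, one_mul, mul_one] at hc
    · exact ⟨e0, e1, e2⟩
    · exact absurd (C.s'_pr.symm.trans (hc ▸ F.pr_one)) hwv
    · exact absurd (C.s_pr.symm.trans (hc ▸ F.pr_one)) hv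
    · have := hc ▸ F.pr_one
      rw [F.mul s C.s_mem _ C.s'_mem, C.s_pr, C.s'_pr, hsum] at this
      exact absurd this hw2
    · exact absurd hc F.setting.z_ne_one
    · have := hc ▸ F.pr_one
      rw [F.pr_z_mul C.s'_mem, C.s'_pr] at this
      exact absurd this hwv
    · have := hc ▸ F.pr_one
      rw [F.pr_z_mul C.s_mem, C.s_pr] at this
      exact absurd this hv
    · have := hc ▸ F.pr_one
      rw [F.pr_z_mul (Qz.mul_mem C.s_mem C.s'_mem), F.mul s C.s_mem _ C.s'_mem, C.s_pr, C.s'_pr,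
        hsum] at this
      exact absurd this hw2
  refine Multiplicative.toAdd.injective (funext fun i => ?_)
  fin_cases i
  exacts [hh.1, hh.2.1, hh.2.2]

theorem iota_range : C.iota.range = C.VV := by
  refine le_antisymm ?_ (C.eight_le ⟨Multiplicative.ofAdd ![1, 0, 0], ?_⟩
    ⟨Multiplicative.ofAdd ![0, 1, 0], ?_⟩ ⟨Multiplicative.ofAdd ![0, 0, 1], ?_⟩)
  · rintro _ ⟨c, rfl⟩
    exact C.VV.mul_mem (C.VV.pow_mem C.frame.z_mem_eight _)
      (C.VV.mul_mem (C.VV.pow_mem C.s_mem_eight _) (C.VV.pow_mem C.s'_mem_eight _))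
  all_goals
    rw [C.iota_apply]
    simp [ZMod.val_one]

theorem card_VV : Nat.card ↥C.VV = 8 := by
  rw [← C.iota_range, ← Nat.card_congr (MonoidHom.ofInjective C.iota_injective).toEquiv]
  simp

theorem elementary_VV : IsElementaryAbelian 2 C.VV :=
  ⟨⟨⟨fun a b => Subtype.ext (C.frame.eight_comm a.2 b.2)⟩⟩,
    fun a ha => by rw [pow_two]; exact C.frame.eight_sq ha⟩

theorem mem_LL [Finite G] {h : G} (hh : ∀ a ∈ C.VV, h * a * h⁻¹ ∈ C.VV) : h ∈ C.LL :=
  by
    rw [Subgroup.mem_normalizer_iff]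
    intro a
    refine ⟨hh a, fun ha => ?_⟩
    let f : ↥C.VV → ↥C.VV := fun b => ⟨h * b * h⁻¹, hh b b.2⟩
    obtain ⟨b, hb⟩ := Finite.surjective_of_injective
      (fun b c e => Subtype.ext (mul_left_cancel (mul_right_cancel (congrArg Subtype.val e))) :
        Function.Injective f) ⟨_, ha⟩
    have : (b : G) = a := mul_left_cancel (mul_right_cancel (congrArg Subtype.val hb))
    exact this ▸ b.2

theorem Qz_le_LL [Finite G] : Qz ≤ C.LL := fun q hq => C.mem_LL fun a ha =>
  ⟨C.frame.conj_mem (C.frame.le_cz hq) ha.1, by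
    rw [C.frame.pr_conj_of_mem hq ha.1]; exact ha.2⟩

theorem x_mem_LL [Finite G] : x ∈ C.LL := C.mem_LL fun a ha =>
  ⟨C.frame.conj_mem C.x_mem ha.1, by rw [C.x_ac a ha.1]; exact inL_om k ha.2⟩

theorem side_le_LL [Finite G] : cz z ⊓ cz s ≤ C.LL := fun c hc => C.mem_LL fun a ha => by
  refine ⟨C.frame.conj_mem hc.1 ha.1, ?_⟩
  rw [C.frame.ac_pr hc.1 ha.1]
  rcases ha.2 with e | e | e | e <;> rw [e]
  · rw [C.frame.ac_zero hc.1]; exact Or.inl rfl
  · rw [C.ac_fix hc]; exact Or.inr (Or.inl rfl)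
  · rcases C.frame.lin_or_anti hc.1 with e' | e' <;> rw [e', C.ac_fix hc]
    · exact Or.inr (Or.inr (Or.inl rfl))
    · exact Or.inr (Or.inr (Or.inr rfl))
  · rcases C.frame.lin_or_anti hc.1 with e' | e' <;> simp only [e' _, C.ac_fix hc]
    · exact Or.inr (Or.inr (Or.inr rfl))
    · rw [om_om_om]; exact Or.inr (Or.inr (Or.inl rfl))

end Cfg

end CfsgLib.LargeFischer60
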