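import Cfsg.Agent.LargeFischer60.Image

/-!
Large Fischer type: the homomorphism of the normalizer of the subgroup of order eight onto
`SL₃(2)` and the order of its kernel.
-/

set_option autoImplicit false

namespace CfsgLib.LargeFischer60

open Cfsg CfsgLib.LargeFischer85
open CfsgLib.LargeExtraspecial (Setting zOf mem_zOf)

theorem zmod_two_eq_one : ∀ a b : ZMod 2, a * b = 1 → a = 1 := by decide

namespace Cfg

variable {G : Type*} [Group G] [Finite G] {Qz : Subgroup G} {z : G} {pr : G → Fin 4096}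
  {k : ZMod 3} {s g x : G} (C : Cfg Qz z pr k s g x)

/-- The centralizer of the subgroup of order eight. -/
abbrev CV : Subgroup G := Subgroup.centralizer (C.VV : Set G)

/-- The coordinates as an isomorphism. -/
noncomputable def coord : Multiplicative (Fin 3 → ZMod 2) ≃* ↥C.VV :=
  (MonoidHom.ofInjective C.iota_injective).trans (MulEquiv.subgroupCongr C.iota_range)

omit [Finite G] in
theorem coord_coe (c : Multiplicative (Fin 3 → ZMod 2)) : (C.coord c : G) = C.iota c := rfl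

omit [Finite G] in
theorem conj_mem_VV {h : G} (hh : h ∈ C.LL) {a : G} (ha : a ∈ C.VV) : h * a * h⁻¹ ∈ C.VV :=
  (Subgroup.mem_normalizer_iff.1 hh a).1 ha

/-- The linear map induced by an element of the normalizer. -/
noncomputable def linMap (h : ↥C.LL) : (Fin 3 → ZMod 2) →ₗ[ZMod 2] (Fin 3 → ZMod 2) :=
  (AddMonoidHom.mk'
    (fun c => (C.coord.symm ⟨(h : G) * (C.coord (Multiplicative.ofAdd c) : G) * (h : G)⁻¹,
      C.conj_mem_VV h.2 (C.coord (Multiplicative.ofAdd c)).2⟩).toAdd)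
    (fun a b => by
      rw [← toAdd_mul, ← map_mul]
      refine congrArg (fun y => (C.coord.symm y).toAdd) (Subtype.ext ?_)
      simp only [ofAdd_add, map_mul, Subgroup.coe_mul]
      group)).toZModLinearMap 2

omit [Finite G] in
theorem linMap_spec (h : ↥C.LL) (c : Fin 3 → ZMod 2) :
    C.iota (Multiplicative.ofAdd (C.linMap h c)) =
      (h : G) * C.iota (Multiplicative.ofAdd c) * (h : G)⁻¹ := by
  rw [← C.coord_coe, ← C.coord_coe]
  simp [linMap]

omit [Finite G] in
theorem linMap_mul (h h' : ↥C.LL) : C.linMap (h * h') = (C.linMap h).comp (C.linMap h') := by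
  refine LinearMap.ext fun c => Multiplicative.ofAdd.injective (C.iota_injective ?_)
  rw [LinearMap.comp_apply, C.linMap_spec, C.linMap_spec, C.linMap_spec, Subgroup.coe_mul]
  group

omit [Finite G] in
theorem linMap_one : C.linMap 1 = LinearMap.id := by
  refine LinearMap.ext fun c => Multiplicative.ofAdd.injective (C.iota_injective ?_)
  rw [C.linMap_spec, LinearMap.id_apply, Subgroup.coe_one, one_mul, inv_one, mul_one]

/-- The action on the subgroup of order eight. -/
noncomputable def toSL : ↥C.LL →* Matrix.SpecialLinearGroup (Fin 3) (ZMod 2) :=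
  MonoidHom.mk'
    (fun h => ⟨LinearMap.toMatrix' (C.linMap h), by
      refine zmod_two_eq_one _ (LinearMap.toMatrix' (C.linMap h⁻¹)).det ?_
      rw [← Matrix.det_mul, ← LinearMap.toMatrix'_comp, ← C.linMap_mul, mul_inv_cancel,
        C.linMap_one, LinearMap.toMatrix'_id, Matrix.det_one]⟩)
    (fun h h' => Subtype.ext (by
      show LinearMap.toMatrix' (C.linMap (h * h')) = _
      rw [C.linMap_mul, LinearMap.toMatrix'_comp]
      rfl))

omit [Finite G] in
theorem toSL_spec (h : ↥C.LL) (c : Fin 3 → ZMod 2) :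
    C.iota (Multiplicative.ofAdd ((C.toSL h : Matrix (Fin 3) (Fin 3) (ZMod 2)).mulVec c)) =
      (h : G) * C.iota (Multiplicative.ofAdd c) * (h : G)⁻¹ := by
  rw [← C.linMap_spec, show (C.toSL h : Matrix (Fin 3) (Fin 3) (ZMod 2)) =
    LinearMap.toMatrix' (C.linMap h) from rfl, LinearMap.toMatrix'_mulVec]

omit [Finite G] in
theorem toSL_eq_one_iff (h : ↥C.LL) : C.toSL h = 1 ↔ (h : G) ∈ C.CV := by
  constructor
  · intro e
    rw [Subgroup.mem_centralizer_iff]
    intro a ha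
    obtain ⟨c, rfl⟩ : a ∈ C.iota.range := C.iota_range.symm ▸ ha
    have := C.toSL_spec h c.toAdd
    rw [e, Matrix.SpecialLinearGroup.coe_one, Matrix.one_mulVec, ofAdd_toAdd] at this
    exact (mul_inv_eq_iff_eq_mul.1 this.symm).symm
  · intro e
    refine Subtype.ext (show LinearMap.toMatrix' (C.linMap h) = 1 from ?_)
    rw [← LinearMap.toMatrix'_id]
    congr 1
    refine LinearMap.ext fun c => Multiplicative.ofAdd.injective (C.iota_injective ?_)
    rw [C.linMap_spec, LinearMap.id_apply, mul_inv_eq_iff_eq_mul]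
    exact (Subgroup.mem_centralizer_iff.1 e _ (C.iota_range ▸ ⟨_, rfl⟩)).symm

include C

omit [Finite G] in
theorem mem_CV {h : G} (h1 : h ∈ cz z) (h2 : h ∈ cz s) (h3 : h ∈ cz (x * s * x⁻¹)) : h ∈ C.CV :=
  Subgroup.mem_centralizer_iff.2 fun a ha => (mem_cz.1 (C.eight_le (P := cz h)
    (mem_cz.2 (mem_cz.1 h1).symm) (mem_cz.2 (mem_cz.1 h2).symm) (mem_cz.2 (mem_cz.1 h3).symm)
      ha))

omit [Finite G] in
theorem CV_le_side : C.CV ≤ cz z ⊓ cz s := fun h hh =>
  ⟨mem_cz.2 (Subgroup.mem_centralizer_iff.1 hh z C.frame.z_mem_eight).symm,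
    mem_cz.2 (Subgroup.mem_centralizer_iff.1 hh s C.s_mem_eight).symm⟩

omit [Finite G] in
theorem CV_cent_s' {h : G} (hh : h ∈ C.CV) : h ∈ cz (x * s * x⁻¹) :=
  mem_cz.2 (Subgroup.mem_centralizer_iff.1 hh _ C.s'_mem_eight).symm

omit [Finite G] in
theorem CV_le_LL : C.CV ≤ C.LL := Subgroup.centralizer_le_normalizer _

omit [Finite G] in
/-- A quarter of `Q` centralizes the subgroup of order eight. -/
theorem card_Qz_CV : Nat.card ↥(Qz ⊓ C.CV) = 2 ^ 11 := by
  have F := C.frame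
  obtain ⟨t, ht, htp⟩ := F.surj (outk k)
  obtain ⟨ho1, ho2⟩ := (vec_facts k).2.1
  have hts : t ∈ Qz ⊓ cz s := ⟨ht, mem_cz.2 ((F.comm t ht s C.s_mem).2 (by
    rw [htp, C.s_pr]; exact ho1))⟩
  have hle : Qz ⊓ C.CV ≤ Qz ⊓ cz s := fun h hh => ⟨hh.1, (C.CV_le_side hh.2).2⟩
  have hidx : ((Qz ⊓ C.CV).subgroupOf (Qz ⊓ cz s)).index = 2 := by
    refine Subgroup.index_eq_two_iff.2 ⟨⟨t, hts⟩, fun b => ?_⟩
    have hmem : ∀ y : ↥(Qz ⊓ cz s),
        y ∈ (Qz ⊓ C.CV).subgroupOf (Qz ⊓ cz s) ↔ orth (pr (y : G)) (om (vk k)) := fun y => by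
      rw [← C.s'_pr, ← F.comm _ y.2.1 _ C.s'_mem]
      exact ⟨fun h => mem_cz.1 (C.CV_cent_s' h.2),
        fun h => ⟨y.2.1, C.mem_CV (F.le_cz y.2.1) y.2.2 (mem_cz.2 h)⟩⟩
    rw [hmem, hmem, Subgroup.coe_mul, F.mul _ b.2.1 _ ht, F.orth_add_left, htp]
    by_cases hb : orth (pr (b : G)) (om (vk k))
    · exact Or.inr ⟨hb, fun h => ho2 (h.1 hb)⟩
    · exact Or.inl ⟨iff_of_false hb ho2, hb⟩
  have h := ((Qz ⊓ C.CV).subgroupOf (Qz ⊓ cz s)).card_mul_index
  rw [hidx, C.card_centralizing, Nat.card_congr (Subgroup.subgroupOfEquivOfLe hle).toEquiv] at h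
  omega

/-- Transitivity on the involutions of the subgroup of order eight. -/
theorem exists_conj_of_mem {a : G} (ha : a ∈ C.VV) (h1 : a ≠ 1) :
    ∃ h ∈ C.LL, h * z * h⁻¹ = a := by
  have F := C.frame
  obtain ⟨w, hw1, -, -, -, hwV⟩ := C.exists_swap_normalizer
  have hwL : w ∈ C.LL := C.mem_LL hwV
  by_cases hp : pr a = 0
  · exact ⟨1, C.LL.one_mem, by rw [((F.ker a ha.1).1 hp).resolve_left h1]; group⟩
  have hb : ∃ b ∈ Qz, pr b = pr a ∧ ∃ h ∈ C.LL, h * z * h⁻¹ = b := by
    rcases ha.2 with e | e | e | e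
    · exact absurd e hp
    · exact ⟨s, C.s_mem, by rw [C.s_pr, e], w, hwL, hw1⟩
    · refine ⟨_, C.s'_mem, by rw [C.s'_pr, e], x * w, C.LL.mul_mem C.x_mem_LL hwL, ?_⟩
      rw [← hw1]; group
    · refine ⟨x * (x * s * x⁻¹) * x⁻¹, F.conj_mem C.x_mem C.s'_mem,
        by rw [C.x_ac _ C.s'_mem, C.s'_pr, e],
        x * (x * w), C.LL.mul_mem C.x_mem_LL (C.LL.mul_mem C.x_mem_LL hwL), ?_⟩
      rw [← hw1]; group
  obtain ⟨b, hb, hbp, h, hh, hhb⟩ := hb
  rcases F.eq_or hb ha.1 hbp with rfl | rfl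
  · exact ⟨h, hh, hhb⟩
  · obtain ⟨q, hq, hqb⟩ := LargeExtraspecial.exists_conj_eq_mul F.setting.extraspecial
      F.setting.mem_iff hb (fun hz => hp (by
        rw [← hbp]; exact (F.ker b hb).2 ((F.setting.mem_iff b).1 hz)))
    refine ⟨q * h, C.LL.mul_mem (C.Qz_le_LL hq) hh, ?_⟩
    rw [← hqb, ← hhb]; group

/-- The normalizer induces all of `SL₃(2)`. -/
theorem toSL_surjective : Function.Surjective C.toSL := by
  classical
  rw [← MonoidHom.range_eq_top]
  refine eq_top_of_dvd _ ?_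
  let e0 : Fin 3 → ZMod 2 := ![1, 0, 0]
  have hi0 : C.iota (Multiplicative.ofAdd e0) = z := by
    rw [C.iota_apply]
    simp [e0, ZMod.val_one]
  let R := C.toSL.range
  let St : Subgroup (Matrix.SpecialLinearGroup (Fin 3) (ZMod 2)) :=
    { carrier := {A | A ∈ R ∧ (A : Matrix (Fin 3) (Fin 3) (ZMod 2)).mulVec e0 = e0}
      one_mem' := ⟨R.one_mem, by rw [Matrix.SpecialLinearGroup.coe_one, Matrix.one_mulVec]⟩
      mul_mem' := fun {a b} ha hb => ⟨R.mul_mem ha.1 hb.1, by
        rw [Matrix.SpecialLinearGroup.coe_mul, ← Matrix.mulVec_mulVec, hb.2, ha.2]⟩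
      inv_mem' := fun {a} ha => ⟨R.inv_mem ha.1, by
        conv_lhs => rw [← ha.2]
        rw [Matrix.mulVec_mulVec, ← Matrix.SpecialLinearGroup.coe_mul, inv_mul_cancel,
          Matrix.SpecialLinearGroup.coe_one, Matrix.one_mulVec]⟩ }
  have hfix : ∀ h : ↥C.LL, (h : G) ∈ cz z → C.toSL h ∈ St := fun h hh =>
    ⟨⟨h, rfl⟩, Multiplicative.ofAdd.injective (C.iota_injective (by
      rw [C.toSL_spec, hi0, conj_eq_of_mem_cz hh]))⟩
  have h4 : 4 ∣ Nat.card ↥St := by
    let f := C.toSL.comp (Subgroup.inclusion C.Qz_le_LL)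
    have hker : Nat.card ↥f.ker = 2 ^ 11 := by
      rw [← C.card_Qz_CV]
      refine Nat.card_congr ⟨fun a => ⟨(a : ↥Qz), (a : ↥Qz).2, (C.toSL_eq_one_iff _).1 a.2⟩,
        fun a => ⟨⟨a, a.2.1⟩, (C.toSL_eq_one_iff _).2 a.2.2⟩, fun _ => rfl, fun _ => rfl⟩
    have h := f.ker.card_mul_index
    rw [hker, Subgroup.index_ker, C.frame.card] at h
    have h4 : Nat.card ↥f.range = 4 := by omega
    rw [← h4]
    refine Subgroup.card_dvd_of_le ?_
    rintro _ ⟨q, rfl⟩
    exact hfix _ (C.frame.le_cz q.2)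
  have h3 : 3 ∣ Nat.card ↥St := by
    set A := C.toSL ⟨x, C.x_mem_LL⟩ with hA
    refine dvd_trans ?_ (Subgroup.orderOf_dvd_natCard (x := A) St (hfix _ C.x_mem))
    have hx : x ^ orderOf A ∈ C.CV := by
      have := (C.toSL_eq_one_iff (⟨x, C.x_mem_LL⟩ ^ orderOf A)).1
        (by rw [map_pow, ← hA, pow_orderOf_eq_one])
      simpa using this
    have hac : ∀ j : ℕ, ∀ v, C.frame.ac (x ^ j) v = om^[j] v := by
      intro j
      induction j with
      | zero => exact fun v => by rw [pow_zero, C.frame.ac_one, Function.iterate_zero_apply]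
      | succ j ih =>
        intro v
        rw [pow_succ, C.frame.ac_mul ((cz z).pow_mem C.x_mem j) C.x_mem, ih, C.ac_x,
          Function.iterate_succ_apply]
    have hv := C.ac_fix (C.CV_le_side hx)
    rw [hac, ← Nat.mod_add_div (orderOf A) 3, Function.iterate_add_apply, Function.iterate_mul,
      Function.iterate_fixed (show om^[3] (vk k) = vk k from om_om_om _)] at hv
    obtain ⟨-, -, -, hw1, -, hw2, -⟩ := vk_facts k
    rcases (by omega : orderOf A % 3 = 0 ∨ orderOf A % 3 = 1 ∨ orderOf A % 3 = 2) with e | e | e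
    · exact Nat.dvd_of_mod_eq_zero e
    · rw [e] at hv; exact absurd hv hw1
    · rw [e] at hv; exact absurd hv hw2
  have hR : Nat.card ↥R = 7 * Nat.card ↥St := by
    have hrep : ∀ c : {c : Fin 3 → ZMod 2 // c ≠ 0},
        ∃ A ∈ R, (A : Matrix (Fin 3) (Fin 3) (ZMod 2)).mulVec e0 = c := by
      rintro ⟨c, hc⟩
      obtain ⟨h, hh, e⟩ := C.exists_conj_of_mem (a := C.iota (Multiplicative.ofAdd c))
        (C.iota_range ▸ ⟨_, rfl⟩) (fun e => hc (Multiplicative.ofAdd.injective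
          (C.iota_injective (e.trans (map_one C.iota).symm))))
      exact ⟨_, ⟨⟨h, hh⟩, rfl⟩, Multiplicative.ofAdd.injective (C.iota_injective (by
        rw [C.toSL_spec, hi0]; exact e))⟩
    choose rep hrep hrep' using hrep
    let f : {c : Fin 3 → ZMod 2 // c ≠ 0} × ↥St → ↥R :=
      fun p => ⟨rep p.1 * p.2, R.mul_mem (hrep _) p.2.2.1⟩
    have happ : ∀ p, ((f p : Matrix.SpecialLinearGroup (Fin 3) (ZMod 2)) :
        Matrix (Fin 3) (Fin 3) (ZMod 2)).mulVec e0 = p.1 := fun p => by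
      rw [Matrix.SpecialLinearGroup.coe_mul, ← Matrix.mulVec_mulVec, p.2.2.2, hrep']
    have hf : Function.Bijective f := by
      constructor
      · rintro ⟨c, A⟩ ⟨c', A'⟩ e
        have e1 : c = c' := Subtype.ext (by
          have := happ ⟨c, A⟩
          rw [e, happ] at this
          exact this.symm)
        subst e1
        exact Prod.ext rfl (Subtype.ext (mul_left_cancel (congrArg Subtype.val e)))
      · intro B
        have hne : ((B : Matrix.SpecialLinearGroup (Fin 3) (ZMod 2)) :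
            Matrix (Fin 3) (Fin 3) (ZMod 2)).mulVec e0 ≠ 0 := fun h0 => by
          have := congrArg ((((B : Matrix.SpecialLinearGroup (Fin 3) (ZMod 2))⁻¹ :
            Matrix.SpecialLinearGroup (Fin 3) (ZMod 2)) : Matrix (Fin 3) (Fin 3) (ZMod 2)).mulVec) h0
          rw [Matrix.mulVec_mulVec, ← Matrix.SpecialLinearGroup.coe_mul, inv_mul_cancel,
            Matrix.SpecialLinearGroup.coe_one, Matrix.one_mulVec, Matrix.mulVec_zero] at this
          exact absurd (congrFun this 0) (by decide)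
        refine ⟨(⟨_, hne⟩, ⟨(rep ⟨_, hne⟩)⁻¹ * B, R.mul_mem (R.inv_mem (hrep _)) B.2, ?_⟩),
          Subtype.ext (mul_inv_cancel_left _ _)⟩
        rw [Matrix.SpecialLinearGroup.coe_mul, ← Matrix.mulVec_mulVec]
        have key := hrep' ⟨_, hne⟩
        generalize rep ⟨_, hne⟩ = A at key ⊢
        dsimp only at key
        rw [← key, Matrix.mulVec_mulVec, ← Matrix.SpecialLinearGroup.coe_mul, inv_mul_cancel,
          Matrix.SpecialLinearGroup.coe_one, Matrix.one_mulVec]
    rw [← Nat.card_congr (Equiv.ofBijective f hf), Nat.card_prod]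
    congr 1
    rw [Nat.card_eq_fintype_card]
    decide +kernel
  rw [hR, show 84 = 7 * 12 from rfl]
  exact Nat.mul_dvd_mul_left 7 (Nat.Coprime.mul_dvd_of_dvd_of_dvd (by norm_num) h4 h3)

end Cfg

end CfsgLib.LargeFischer60
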