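import Cfsg.Agent.LargeFischer60.Induced
import Mathlib.GroupTheory.SpecificGroups.Alternating.Simple

/-!
Large Fischer type: the normal 2-subgroup of order `2 ^ 15` in the centralizer of the subgroup of
order eight, with factor group `A₆`.
-/

set_option autoImplicit false

namespace CfsgLib.LargeFischer60

open Cfsg CfsgLib.LargeFischer85
open CfsgLib.LargeExtraspecial (Setting zOf mem_zOf)

theorem card_mul_card_eq_sup_mul_inf {G : Type*} [Group G] [Finite G] {A B : Subgroup G}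
    (hB : B ≤ Subgroup.normalizer (A : Set G)) :
    Nat.card ↥(A ⊔ B) * Nat.card ↥(A ⊓ B) = Nat.card A * Nat.card B := by
  have : (A.subgroupOf (A ⊔ B)).Normal :=
    (Subgroup.normal_subgroupOf_iff_le_normalizer le_sup_left).mpr (sup_le Subgroup.le_normalizer hB)
  have hr : A.relIndex (A ⊔ B) = A.relIndex B := by
    rw [← Subgroup.relIndex_subgroupOf (H := A) (le_sup_right : B ≤ A ⊔ B),
      ← Subgroup.relIndex_sup_left (K := A.subgroupOf (A ⊔ B)),
      ← Subgroup.subgroupOf_sup le_sup_left le_sup_right, Subgroup.subgroupOf_self,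
      Subgroup.relIndex_top_right]
    rfl
  have h1 := (A.subgroupOf (A ⊔ B)).card_mul_index
  rw [Nat.card_congr (Subgroup.subgroupOfEquivOfLe (le_sup_left : A ≤ A ⊔ B)).toEquiv] at h1
  have h2 := ((A ⊓ B).subgroupOf B).card_mul_index
  rw [Nat.card_congr (Subgroup.subgroupOfEquivOfLe (inf_le_right : A ⊓ B ≤ B)).toEquiv] at h2
  change Nat.card A * A.relIndex (A ⊔ B) = _ at h1
  change Nat.card ↥(A ⊓ B) * (A ⊓ B).relIndex B = _ at h2
  rw [Subgroup.inf_relIndex_right] at h2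
  rw [← h1, ← h2, hr]
  ring

theorem card_alt_six : Nat.card ↥(alternatingGroup (Fin 6)) = 360 := by
  rw [nat_card_alternatingGroup, Nat.card_eq_fintype_card, Fintype.card_fin]
  rfl

theorem isSimpleGroup_alt_six : IsSimpleGroup ↥(alternatingGroup (Fin 6)) :=
  alternatingGroup.isSimpleGroup (by simp)

/-- A normal 2-subgroup of `A₆` is trivial. -/
theorem alt_six_eq_bot (N : Subgroup ↥(alternatingGroup (Fin 6))) (hN : N.Normal)
    (hp : IsPGroup 2 ↥N) : N = ⊥ := by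
  have := isSimpleGroup_alt_six
  rcases hN.eq_bot_or_eq_top with e | e
  · exact e
  · exfalso
    have : Fact (Nat.Prime 2) := ⟨Nat.prime_two⟩
    obtain ⟨n, hn⟩ := IsPGroup.iff_card.1 hp
    rw [e, Subgroup.card_top, card_alt_six] at hn
    have h3 : 3 ∣ 2 ^ n := hn ▸ (by norm_num : 3 ∣ 360)
    exact absurd (Nat.prime_three.dvd_of_dvd_pow h3) (by norm_num)

theorem card_stabilizer_pair : Fintype.card
    {A : Matrix.SpecialLinearGroup (Fin 3) (ZMod 2) //
      (A : Matrix (Fin 3) (Fin 3) (ZMod 2)).mulVec ![1, 0, 0] = ![1, 0, 0] ∧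
      (A : Matrix (Fin 3) (Fin 3) (ZMod 2)).mulVec ![0, 1, 0] = ![0, 1, 0]} = 4 := by
  decide +kernel

namespace Cfg

variable {G : Type*} [Group G] [Finite G] {Qz : Subgroup G} {z : G} {pr : G → Fin 4096}
  {k : ZMod 3} {s g x : G} (C : Cfg Qz z pr k s g x)

/-- The radical. -/
def RR : Subgroup G := (Qz ⊓ C.CV) ⊔ (conjQ Qz g ⊓ C.CV)

/-- The homomorphism onto `A₆`. -/
noncomputable def psi : ↥C.CV →* ↥(alternatingGroup (Fin 6)) :=
  C.pair_quot.choose.comp (Subgroup.inclusion C.CV_le_side)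

include C

omit [Finite G] in
theorem le_CV : C.RR ≤ C.CV := sup_le inf_le_right inf_le_right

theorem inter_le_CV : Qz ⊓ conjQ Qz g ≤ C.CV := fun _ ha =>
  C.mem_CV (C.frame.le_cz ha.1) (mem_cz.2 (C.setting_s.comm ha.2))
    (mem_cz.2 ((C.frame.comm _ ha.1 _ C.s'_mem).2 (by rw [C.s'_pr]; exact C.orth_inter ha)))

omit [Finite G] in
theorem CV_normal {h : G} (hh : h ∈ C.LL) {c : G} (hc : c ∈ C.CV) : h * c * h⁻¹ ∈ C.CV := by
  rw [Subgroup.mem_centralizer_iff]
  intro a ha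
  have := Subgroup.mem_centralizer_iff.1 hc _ (C.conj_mem_VV (C.LL.inv_mem hh) ha)
  rw [inv_inv] at this
  calc a * (h * c * h⁻¹) = h * (h⁻¹ * a * h * c) * h⁻¹ := by group
    _ = h * (c * (h⁻¹ * a * h)) * h⁻¹ := by rw [this]
    _ = _ := by group

omit [Finite G] in
theorem Qz_inf_normal {c : G} (hc : c ∈ C.CV) {a : G} (ha : a ∈ Qz ⊓ C.CV) :
    c * a * c⁻¹ ∈ Qz ⊓ C.CV :=
  ⟨C.frame.conj_mem (C.CV_le_side hc).1 ha.1, C.CV.mul_mem (C.CV.mul_mem hc ha.2) (C.CV.inv_mem hc)⟩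

omit [Finite G] in
theorem side_inf_normal {c : G} (hc : c ∈ C.CV) {a : G} (ha : a ∈ conjQ Qz g ⊓ C.CV) :
    c * a * c⁻¹ ∈ conjQ Qz g ⊓ C.CV :=
  ⟨(C.setting_s.normalized c (mem_cz.1 (C.CV_le_side hc).2) a).1 ha.1,
    C.CV.mul_mem (C.CV.mul_mem hc ha.2) (C.CV.inv_mem hc)⟩

theorem CV_le_normalizer : C.CV ≤ Subgroup.normalizer (C.RR : Set G) := by
  intro c hc
  rw [Subgroup.mem_normalizer_iff]
  have key : ∀ c ∈ C.CV, ∀ a ∈ C.RR, c * a * c⁻¹ ∈ C.RR := fun c hc a ha =>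
    (sup_le (fun b hb => Subgroup.mem_sup_left (C.Qz_inf_normal hc hb))
      (fun b hb => Subgroup.mem_sup_right (C.side_inf_normal hc hb)) :
      C.RR ≤ C.RR.comap (MulAut.conj c).toMonoidHom) ha
  refine fun a => ⟨key c hc a, fun h => ?_⟩
  have := key c⁻¹ (C.CV.inv_mem hc) _ h
  simpa [mul_assoc] using this

theorem mem_side_swap : ∃ w ∈ C.LL, w * z * w⁻¹ = s ∧ w * s * w⁻¹ = z ∧
    (∀ a, a ∈ conjQ Qz g ↔ w⁻¹ * a * w ∈ Qz) ∧ (∀ a, a ∈ Qz ↔ w⁻¹ * a * w ∈ conjQ Qz g) := by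
  obtain ⟨w, h1, h2, h3, h4, h5⟩ := C.exists_swap_normalizer
  exact ⟨w, C.mem_LL h5, h1, h2, h3, h4⟩

theorem card_side_CV : Nat.card ↥(conjQ Qz g ⊓ C.CV) = 2 ^ 11 := by
  obtain ⟨w, hw, -, -, hwQ, -⟩ := C.mem_side_swap
  rw [← C.card_Qz_CV, show conjQ Qz g ⊓ C.CV = (Qz ⊓ C.CV).map (MulAut.conj w).toMonoidHom from ?_,
    Subgroup.card_map_of_injective (MulAut.conj w).injective]
  ext a
  rw [LargeExtraspecial.mem_conj_iff, Subgroup.mem_inf, Subgroup.mem_inf, hwQ]
  refine and_congr_right fun _ => ⟨fun h => ?_, fun h => ?_⟩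
  · simpa [inv_inv] using C.CV_normal (C.LL.inv_mem hw) h
  · simpa [mul_assoc] using C.CV_normal hw h

theorem card_RR : Nat.card ↥C.RR = 2 ^ 15 := by
  have hn : conjQ Qz g ⊓ C.CV ≤ Subgroup.normalizer ((Qz ⊓ C.CV : Subgroup G) : Set G) := by
    intro c hc
    rw [Subgroup.mem_normalizer_iff]
    refine fun a => ⟨C.Qz_inf_normal hc.2, fun h => ?_⟩
    simpa [mul_assoc] using C.Qz_inf_normal (C.CV.inv_mem hc.2) h
  have h := card_mul_card_eq_sup_mul_inf hn
  rw [C.card_Qz_CV, C.card_side_CV, show (Qz ⊓ C.CV) ⊓ (conjQ Qz g ⊓ C.CV) = Qz ⊓ conjQ Qz g from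
    le_antisymm (fun a ha => ⟨ha.1.1, ha.2.1⟩)
      (fun a ha => ⟨⟨ha.1, C.inter_le_CV ha⟩, ⟨ha.2, C.inter_le_CV ha⟩⟩), C.pair_card] at h
  change Nat.card ↥C.RR * 2 ^ 7 = _ at h
  omega

theorem isPGroup_RR : IsPGroup 2 ↥C.RR := IsPGroup.of_card C.card_RR

theorem psi_eq_one (c : ↥C.CV) : C.psi c = 1 ↔ (c : G) ∈ C.RR := by
  have F := C.frame
  constructor
  · intro h
    obtain ⟨b, hb, hbz, hq⟩ := (C.pair_quot.choose_spec.2 _).1 h
    have hq' : (c : G) * b⁻¹ ∈ Qz := hq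
    set a := (c : G) * b⁻¹ with ha
    have hcs := (C.CV_le_side c.2).2
    have has : a ∈ cz s := (cz s).mul_mem hcs ((cz s).inv_mem (mem_cz.2 (C.setting_s.comm hb)))
    have hst := C.CV_cent_s' c.2
    set t := x * s * x⁻¹
    have hbt : b ∈ cz t := by
      rcases LargeExtraspecial.conj_mem_two C.setting_s.extraspecial C.setting_s.mem_iff hb
        C.s'_mem_conjQ with e | e
      · exact mem_cz_of_conj e
      · exfalso
        have hbeq : b = a⁻¹ * c := by rw [ha]; group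
        have e2 : b * t * b⁻¹ = a⁻¹ * t * a := by
          rw [hbeq]
          calc a⁻¹ * (c : G) * t * (a⁻¹ * (c : G))⁻¹
              = a⁻¹ * ((c : G) * t * (c : G)⁻¹) * a := by group
            _ = _ := by rw [conj_eq_of_mem_cz hst]
        rcases LargeExtraspecial.conj_mem_two F.setting.extraspecial F.setting.mem_iff
          (Qz.inv_mem hq') C.s'_mem with e' | e' <;> rw [inv_inv] at e'
        · rw [e2, e'] at e
          exact C.setting_s.z_ne_one (mul_eq_right.1 e.symm)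
        · rw [e2, e'] at e
          exact C.s_ne_z (mul_right_cancel e).symm
    have hbCV : b ∈ C.CV := C.mem_CV (mem_cz.2 hbz) (mem_cz.2 (C.setting_s.comm hb)) hbt
    have : (c : G) = a * b := by rw [ha]; group
    rw [this]
    exact C.RR.mul_mem (Subgroup.mem_sup_left ⟨hq', C.CV.mul_mem c.2 (C.CV.inv_mem hbCV)⟩)
      (Subgroup.mem_sup_right ⟨hb, hbCV⟩)
  · intro h
    have key : C.RR ≤ C.psi.ker.map C.CV.subtype := by
      refine sup_le ?_ ?_
      · intro a ha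
        refine ⟨⟨a, ha.2⟩, (C.pair_quot.choose_spec.2 _).2 ⟨1, (conjQ Qz g).one_mem, ?_, ?_⟩, rfl⟩
        · rw [one_mul, mul_one]
        · simpa using ha.1
      · intro a ha
        refine ⟨⟨a, ha.2⟩, (C.pair_quot.choose_spec.2 _).2 ⟨a, ha.1,
          mem_cz.1 (C.CV_le_side ha.2).1, ?_⟩, rfl⟩
        simp
    obtain ⟨d, hd, hdc⟩ := key h
    rw [show c = d from Subtype.ext hdc.symm]
    exact hd

theorem psi_surjective : Function.Surjective C.psi := by
  classical
  set ψ := C.pair_quot.choose with hψ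
  have hsurj : Function.Surjective ψ := C.pair_quot.choose_spec.1
  rw [← MonoidHom.range_eq_top]
  have hn : C.psi.range.Normal := by
    refine ⟨fun n hn y => ?_⟩
    obtain ⟨c, rfl⟩ := hn
    obtain ⟨d, rfl⟩ := hsurj y
    refine ⟨⟨(d : G) * c * (d : G)⁻¹, C.CV_normal (C.side_le_LL d.2) c.2⟩, ?_⟩
    show ψ _ = ψ d * ψ _ * (ψ d)⁻¹
    rw [← map_inv, ← map_mul, ← map_mul]
    rfl
  have := isSimpleGroup_alt_six
  refine hn.eq_bot_or_eq_top.resolve_left fun hbot => ?_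
  -- otherwise `A₆` would be an image of a group of order at most four
  let K : Subgroup ↥(cz z ⊓ cz s) := C.CV.subgroupOf (cz z ⊓ cz s)
  have hK : K ≤ ψ.ker := fun c hc => by
    have h1 : C.psi ⟨c, hc⟩ ∈ C.psi.range := ⟨_, rfl⟩
    rw [hbot, Subgroup.mem_bot] at h1
    exact h1
  have h1 : 360 ∣ K.index := by
    rw [← card_alt_six, ← Subgroup.card_top (G := ↥(alternatingGroup (Fin 6))),
      ← MonoidHom.range_eq_top.2 hsurj, ← Subgroup.index_ker]
    exact Subgroup.index_dvd_of_le hK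
  have h2 : K.index ≤ 4 := by
    let f : ↥(cz z ⊓ cz s) →* Matrix.SpecialLinearGroup (Fin 3) (ZMod 2) :=
      C.toSL.comp (Subgroup.inclusion C.side_le_LL)
    have hfk : f.ker = K := by
      ext c
      rw [MonoidHom.mem_ker, Subgroup.mem_subgroupOf]
      exact C.toSL_eq_one_iff _
    rw [← hfk, Subgroup.index_ker, ← card_stabilizer_pair, ← Nat.card_eq_fintype_card]
    refine Nat.card_le_card_of_injective (fun A => ⟨A.1, ?_⟩)
      fun A B e => Subtype.ext (congrArg Subtype.val e :)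
    obtain ⟨A, c, rfl⟩ := A
    refine ⟨Multiplicative.ofAdd.injective (C.iota_injective ?_),
      Multiplicative.ofAdd.injective (C.iota_injective ?_)⟩
    · show C.iota (Multiplicative.ofAdd ((C.toSL _).1.mulVec _)) = _
      rw [C.toSL_spec, C.iota_apply]
      simp only [Subgroup.coe_inclusion]
      simpa [ZMod.val_one] using conj_eq_of_mem_cz c.2.1
    · show C.iota (Multiplicative.ofAdd ((C.toSL _).1.mulVec _)) = _
      rw [C.toSL_spec, C.iota_apply]
      simp only [Subgroup.coe_inclusion]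
      simpa [ZMod.val_one] using conj_eq_of_mem_cz c.2.2
  have := Nat.le_of_dvd (Nat.pos_of_ne_zero Subgroup.index_ne_zero_of_finite) h1
  omega

/-- A 2-subgroup normalized by the centralizer lies in the radical. -/
theorem le_RR_of_normalized {N : Subgroup G} (hN : N ≤ C.CV)
    (hnorm : C.CV ≤ Subgroup.normalizer (N : Set G)) (hp : IsPGroup 2 ↥N) : N ≤ C.RR := by
  have : (N.subgroupOf C.CV).Normal := (Subgroup.normal_subgroupOf_iff_le_normalizer hN).2 hnorm
  have h := alt_six_eq_bot _ (this.map _ C.psi_surjective)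
    ((hp.of_equiv (Subgroup.subgroupOfEquivOfLe hN).symm).map _)
  intro a ha
  have h1 : C.psi ⟨a, hN ha⟩ ∈ (N.subgroupOf C.CV).map C.psi := Subgroup.mem_map_of_mem _ ha
  rw [h, Subgroup.mem_bot] at h1
  exact (C.psi_eq_one ⟨a, hN ha⟩).1 h1

/-- The radical is normal in the normalizer. -/
theorem conj_mem_RR {h : G} (hh : h ∈ C.LL) {r : G} (hr : r ∈ C.RR) : h * r * h⁻¹ ∈ C.RR := by
  refine C.le_RR_of_normalized (N := C.RR.map (MulAut.conj h).toMonoidHom) ?_ ?_
    (C.isPGroup_RR.map _) ⟨r, hr, rfl⟩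
  · rintro _ ⟨a, ha, rfl⟩
    exact C.CV_normal hh (C.le_CV ha)
  · intro c hc
    rw [Subgroup.mem_normalizer_iff]
    have hc' : h⁻¹ * c * h ∈ C.CV := by
      simpa [inv_inv] using C.CV_normal (C.LL.inv_mem hh) hc
    intro a
    rw [LargeExtraspecial.mem_conj_iff, LargeExtraspecial.mem_conj_iff,
      Subgroup.mem_normalizer_iff.1 (C.CV_le_normalizer hc') (h⁻¹ * a * h)]
    group

theorem LL_le_normalizer : C.LL ≤ Subgroup.normalizer (C.RR : Set G) := fun h hh => by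
  rw [Subgroup.mem_normalizer_iff]
  refine fun a => ⟨C.conj_mem_RR hh, fun h' => ?_⟩
  simpa [mul_assoc] using C.conj_mem_RR (C.LL.inv_mem hh) h'

theorem card_CV : Nat.card ↥C.CV = 360 * 2 ^ 15 := by
  have h := C.psi.ker.card_mul_index
  rw [Subgroup.index_ker, MonoidHom.range_eq_top.2 C.psi_surjective, Subgroup.card_top,
    card_alt_six, show C.psi.ker = C.RR.subgroupOf C.CV from ?_,
    Nat.card_congr (Subgroup.subgroupOfEquivOfLe C.le_CV).toEquiv, C.card_RR] at h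
  · rw [← h, mul_comm]
  · ext c
    rw [MonoidHom.mem_ker, Subgroup.mem_subgroupOf]
    exact C.psi_eq_one c

end Cfg

end CfsgLib.LargeFischer60
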