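import Cfsg.Agent.LargeFischer60.Radical
import Cfsg.Agent.CharP.FrattiniElem

/-!
Large Fischer type: the radical is special with centre the subgroup of order eight.
-/

set_option autoImplicit false

namespace CfsgLib.LargeFischer60

open Cfsg CfsgLib.LargeFischer85
open CfsgLib.LargeExtraspecial (Setting zOf mem_zOf)
open scoped commutatorElement

theorem commutator_eq_squares {G : Type*} [Group G] (a b : G) :
    ⁅a, b⁆ = a * b * (a * b) * (b⁻¹ * (a * a)⁻¹ * b) * (b * b)⁻¹ := by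
  rw [commutatorElement_def]
  group

theorem cycle_back {G : Type*} [Group G] (S : Subgroup G) {c : G} {d : ℕ} (h5 : c ^ 5 ∈ S)
    (hd : c ^ d ∈ S) (hd1 : 1 ≤ d) (hd2 : d ≤ 4) : c ∈ S := by
  rcases (by omega : d = 1 ∨ d = 2 ∨ d = 3 ∨ d = 4) with rfl | rfl | rfl | rfl
  · simpa using hd
  · rw [show c = c ^ 5 * ((c ^ 2) ^ 2)⁻¹ by group]
    exact S.mul_mem h5 (S.inv_mem (S.pow_mem hd 2))
  · rw [show c = (c ^ 3) ^ 2 * (c ^ 5)⁻¹ by group]
    exact S.mul_mem (S.pow_mem hd 2) (S.inv_mem h5)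
  · rw [show c = c ^ 5 * (c ^ 4)⁻¹ by group]
    exact S.mul_mem h5 (S.inv_mem hd)

namespace Cfg

variable {G : Type*} [Group G] [Finite G] {Qz : Subgroup G} {z : G} {pr : G → Fin 4096}
  {k : ZMod 3} {s g x : G}

omit [Finite G] in
/-- The vectors of the intersection of the two extraspecial groups. -/
def Ibar (_ : Cfg Qz z pr k s g x) (e : Fin 4096) : Prop := ∃ a ∈ Qz ⊓ conjQ Qz g, pr a = e

variable (C : Cfg Qz z pr k s g x)
include C

omit [Finite G] in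
theorem Ibar_add {e e' : Fin 4096} (h : C.Ibar e) (h' : C.Ibar e') : C.Ibar (vadd e e') := by
  obtain ⟨a, ha, rfl⟩ := h
  obtain ⟨b, hb, rfl⟩ := h'
  exact ⟨a * b, (Qz ⊓ conjQ Qz g).mul_mem ha hb, C.frame.mul a ha.1 b hb.1⟩

theorem Ibar_orth {e e' : Fin 4096} (h : C.Ibar e) (h' : C.Ibar e') : orth e e' := by
  obtain ⟨a, ha, rfl⟩ := h
  obtain ⟨b, hb, rfl⟩ := h'
  refine (C.frame.comm a ha.1 b hb.1).1 ?_
  have h1 := C.inf_sq ((Qz ⊓ conjQ Qz g).mul_mem ha hb)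
  rw [← inv_eq_of_mul_eq_one_right h1, mul_inv_rev, inv_eq_of_mul_eq_one_right (C.inf_sq ha),
    inv_eq_of_mul_eq_one_right (C.inf_sq hb)]

theorem Ibar_perp {e : Fin 4096} (h : C.Ibar e) : orth e (vk k) ∧ orth e (om (vk k)) := by
  obtain ⟨a, ha, rfl⟩ := h
  refine ⟨?_, C.orth_inter ha⟩
  rw [← C.s_pr, ← C.frame.comm a ha.1 s C.s_mem]
  exact C.setting_s.comm ha.2

omit [Finite G] in
theorem inter_conj {c : G} (hc : c ∈ cz z ⊓ cz s) {a : G} (ha : a ∈ Qz ⊓ conjQ Qz g) :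
    c * a * c⁻¹ ∈ Qz ⊓ conjQ Qz g :=
  ⟨C.frame.conj_mem hc.1 ha.1, (C.setting_s.normalized c (mem_cz.1 hc.2) a).1 ha.2⟩

omit [Finite G] in
theorem Ibar_gk (i : Fin 2) {e : Fin 4096} (h : C.Ibar e) : C.Ibar (gk k i e) := by
  obtain ⟨c, hc, -, hce⟩ := C.exists_lift i
  obtain ⟨a, ha, rfl⟩ := h
  exact ⟨_, C.inter_conj hc ha, by rw [C.frame.ac_pr hc.1 ha.1, hce]⟩

omit [Finite G] in
theorem gk_om (i : Fin 2) (e : Fin 4096) : gk k i (om e) = om (gk k i e) := by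
  obtain ⟨c, -, hl, hce⟩ := C.exists_lift i
  rw [← hce, ← hce, hl]

theorem Ibar_of_inL {e : Fin 4096} (h : inL (vk k) e) : C.Ibar e := by
  obtain ⟨a, ha, rfl⟩ := C.frame.surj e
  exact ⟨a, C.eight_le_inter ⟨ha, h⟩, rfl⟩

/-- The part of the intersection invariant under the scalar is just `L`. -/
theorem inL_of_Ibar {e : Fin 4096} (h : C.Ibar e) (h' : C.Ibar (om (om e))) : inL (vk k) e := by
  have F := C.frame
  by_contra hne
  let D : Fin 4096 → Prop := fun e => C.Ibar e ∧ C.Ibar (om (om e))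
  have hadd : ∀ a b, D a → D b → D (vadd a b) := fun a b ha hb =>
    ⟨C.Ibar_add ha.1 hb.1, by rw [F.om_add, F.om_add]; exact C.Ibar_add ha.2 hb.2⟩
  have hom : ∀ a, D a → D (om a) := fun a ha => by
    refine ⟨?_, by rw [om_om_om]; exact ha.1⟩
    have := C.Ibar_add ha.1 ha.2
    rwa [om_om, ← vadd_assoc, vadd_self, vadd_comm, vadd_zero] at this
  have hg : ∀ i a, D a → D (gk k i a) := fun i a ha =>
    ⟨C.Ibar_gk i ha.1, by rw [← C.gk_om, ← C.gk_om]; exact C.Ibar_gk i ha.2⟩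
  obtain ⟨-, -, ⟨p1, p2, q1, q2, hpq⟩, -⟩ := vec_facts k
  have hD := mem_of_closed hadd hom hg (C.Ibar_perp h).1 hne (⟨h, h'⟩ : D e)
  exact hpq (C.Ibar_orth (hD _ p1 p2).1 (hD _ q1 q2).1)

theorem exists_decomp {r : G} (hr : r ∈ C.RR) :
    ∃ a ∈ Qz ⊓ C.CV, ∃ b ∈ conjQ Qz g ⊓ C.CV, r = a * b := by
  have hr' : r ∈ ((Qz ⊓ C.CV) ⊔ (conjQ Qz g ⊓ C.CV) : Subgroup G) := hr
  rw [← SetLike.mem_coe, Subgroup.coe_mul_of_right_le_normalizer_left] at hr'
  · obtain ⟨a, ha, b, hb, e⟩ := hr'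
    exact ⟨a, ha, b, hb, e.symm⟩
  · intro c hc
    rw [Subgroup.mem_normalizer_iff]
    refine fun a => ⟨C.Qz_inf_normal hc.2, fun h => ?_⟩
    simpa [mul_assoc] using C.Qz_inf_normal (C.CV.inv_mem hc.2) h

theorem sq_mem_Qz {r : G} (hr : r ∈ C.RR) : r * r ∈ Qz := by
  obtain ⟨a, ha, b, hb, rfl⟩ := C.exists_decomp hr
  have hbb : b * b ∈ Qz := by
    rcases (C.setting_s.mem_iff _).1 (LargeExtraspecial.sq_mem C.setting_s.extraspecial hb.1)
      with e | e <;> rw [e]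
    exacts [Qz.one_mem, C.s_mem]
  rw [show a * b * (a * b) = a * (b * a * b⁻¹) * (b * b) by group]
  exact Qz.mul_mem (Qz.mul_mem ha.1 (C.frame.conj_mem (C.CV_le_side hb.2).1 ha.1)) hbb

theorem sq_mem_VV {r : G} (hr : r ∈ C.RR) : r * r ∈ C.VV := by
  have F := C.frame
  obtain ⟨w, hw, -, -, hwQ, -⟩ := C.mem_side_swap
  have hside : ∀ q ∈ C.RR, q * q ∈ conjQ Qz g := by
    intro q hq
    rw [hwQ, show w⁻¹ * (q * q) * w = w⁻¹ * q * w⁻¹⁻¹ * (w⁻¹ * q * w⁻¹⁻¹) by group]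
    exact C.sq_mem_Qz (C.conj_mem_RR (C.LL.inv_mem hw) hq)
  have h1 : C.Ibar (pr (r * r)) := ⟨_, ⟨C.sq_mem_Qz hr, hside r hr⟩, rfl⟩
  have hxi : x⁻¹ ∈ cz z := (cz z).inv_mem C.x_mem
  have hr' := C.conj_mem_RR (C.LL.inv_mem C.x_mem_LL) hr
  have h2 : C.Ibar (om (om (pr (r * r)))) := by
    refine ⟨_, ⟨C.sq_mem_Qz hr', hside _ hr'⟩, ?_⟩
    rw [show x⁻¹ * r * x⁻¹⁻¹ * (x⁻¹ * r * x⁻¹⁻¹) = x⁻¹ * (r * r) * x⁻¹⁻¹ by group,
      F.ac_pr hxi (C.sq_mem_Qz hr)]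
    conv_lhs => rw [← om_om_om (pr (r * r)), ← C.ac_x, F.ac_inv_ac C.x_mem]
  exact ⟨C.sq_mem_Qz hr, C.inL_of_Ibar h1 h2⟩

theorem VV_le_Qz_CV : C.VV ≤ Qz ⊓ C.CV := fun _ ha =>
  ⟨ha.1, C.inter_le_CV (C.eight_le_inter ha)⟩

theorem VV_le_RR : C.VV ≤ C.RR := fun _ ha => Subgroup.mem_sup_left (C.VV_le_Qz_CV ha)

omit [Finite G] in
theorem CV_comm {c : G} (hc : c ∈ C.CV) {v : G} (hv : v ∈ C.VV) : c * v = v * c :=
  (Subgroup.mem_centralizer_iff.1 hc v hv).symm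

omit [Finite G] in
theorem lin_CV {c : G} (hc : c ∈ C.CV) : C.frame.Lin c := by
  have hcz := (C.CV_le_side hc).1
  refine C.frame.lin_of_fix hcz (C.ac_fix (C.CV_le_side hc)) ?_
  rw [← C.s'_pr, ← C.frame.ac_pr hcz C.s'_mem, conj_eq_of_mem_cz (C.CV_cent_s' hc)]

/-- The elements of the radical commuting with it. -/
def IsZ (r : G) : Prop := r ∈ C.RR ∧ ∀ q ∈ C.RR, q * r = r * q

theorem Qz_center {r : G} (hr : C.IsZ r) (hQ : r ∈ Qz) : r ∈ C.VV := by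
  refine ⟨hQ, inL_of_perp k _ fun e h1 h2 => ?_⟩
  obtain ⟨a, ha, rfl⟩ := C.frame.surj e
  refine (C.frame.comm r hQ a ha).1 (hr.2 a (Subgroup.mem_sup_left ⟨ha, ?_⟩)).symm
  refine C.mem_CV (C.frame.le_cz ha) (mem_cz.2 ((C.frame.comm a ha s C.s_mem).2 ?_))
    (mem_cz.2 ((C.frame.comm a ha _ C.s'_mem).2 ?_))
  · rwa [C.s_pr]
  · rwa [C.s'_pr]

theorem center_fix_perp {r : G} (hr : C.IsZ r) {e : Fin 4096} (h1 : orth e (vk k))
    (h2 : orth e (om (vk k))) : C.frame.ac r e = e := by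
  have F := C.frame
  obtain ⟨a, ha, rfl⟩ := F.surj e
  have hac : a ∈ C.CV := C.mem_CV (F.le_cz ha)
    (mem_cz.2 ((F.comm a ha s C.s_mem).2 (by rwa [C.s_pr])))
    (mem_cz.2 ((F.comm a ha _ C.s'_mem).2 (by rwa [C.s'_pr])))
  rw [← F.ac_pr (C.CV_le_side (C.le_CV hr.1)).1 ha,
    ← hr.2 a (Subgroup.mem_sup_left ⟨ha, hac⟩), mul_inv_cancel_right]

theorem center_move {r : G} (hr : C.IsZ r) (e : Fin 4096) :
    inL (vk k) (vadd (C.frame.ac r e) e) := by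
  have F := C.frame
  refine inL_of_perp k _ fun a h1 h2 => ?_
  rw [F.orth_add_left]
  have := F.ac_orth (C.CV_le_side (C.le_CV hr.1)).1 e a
  rwa [C.center_fix_perp hr h1 h2] at this

theorem IsZ_conj {c r : G} (hc : c ∈ C.LL) (hr : C.IsZ r) : C.IsZ (c * r * c⁻¹) := by
  refine ⟨C.conj_mem_RR hc hr.1, fun q hq => ?_⟩
  have := hr.2 _ (C.conj_mem_RR (C.LL.inv_mem hc) hq)
  calc q * (c * r * c⁻¹) = c * (c⁻¹ * q * c⁻¹⁻¹ * r) * c⁻¹ := by group
    _ = c * (r * (c⁻¹ * q * c⁻¹⁻¹)) * c⁻¹ := by rw [this]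
    _ = _ := by group

/-- An element of order five modulo the radical centralizes the centre modulo `V`. -/
theorem five_fix {c r : G} (hc : c ∈ C.CV) (h5 : c ^ 5 ∈ C.RR) (hr : C.IsZ r) :
    c * r * c⁻¹ * r⁻¹ ∈ C.VV := by
  classical
  have F := C.frame
  have hmul : ∀ a b : G, a ∈ C.CV → b * r * b⁻¹ * r⁻¹ ∈ C.VV →
      a * b * r * (a * b)⁻¹ * r⁻¹ = b * r * b⁻¹ * r⁻¹ * (a * r * a⁻¹ * r⁻¹) := by
    intro a b ha hb
    rw [show a * b * r * (a * b)⁻¹ * r⁻¹ =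
      a * (b * r * b⁻¹ * r⁻¹) * a⁻¹ * (a * r * a⁻¹ * r⁻¹) by group, C.CV_comm ha hb,
      mul_inv_cancel_right]
  let S : Subgroup G :=
    { carrier := {h | h ∈ C.CV ∧ h * r * h⁻¹ * r⁻¹ ∈ C.VV}
      one_mem' := ⟨C.CV.one_mem, by simp⟩
      mul_mem' := fun {a b} ha hb => ⟨C.CV.mul_mem ha.1 hb.1, by
        rw [hmul a b ha.1 hb.2]; exact C.VV.mul_mem hb.2 ha.2⟩
      inv_mem' := fun {a} ha => ⟨C.CV.inv_mem ha.1, by
        have h := C.CV_comm (C.CV.inv_mem ha.1) (C.VV.inv_mem ha.2)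
        have e : a⁻¹ * r * a⁻¹⁻¹ * r⁻¹ = a⁻¹ * (a * r * a⁻¹ * r⁻¹)⁻¹ * a := by group
        rw [e, h, inv_mul_cancel_right]
        exact C.VV.inv_mem ha.2⟩ }
  have h5S : c ^ 5 ∈ S := by
    refine ⟨C.CV.pow_mem hc 5, ?_⟩
    rw [hr.2 _ h5, mul_inv_cancel_right, mul_inv_cancel]
    exact C.VV.one_mem
  let t : Fin 5 → G := fun j => c ^ j.val * r * (c ^ j.val)⁻¹
  have hrj : ∀ j, C.IsZ (t j) := fun j => C.IsZ_conj (C.CV_le_LL (C.CV.pow_mem hc _)) hr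
  let val : Fin 5 → {l // inL (vk k) l} :=
    fun j => ⟨vadd (F.ac (t j) (outk k)) (outk k), C.center_move (hrj j) _⟩
  obtain ⟨i, j, hij, he⟩ : ∃ i j, i ≠ j ∧ val i = val j := by
    by_contra hno
    push Not at hno
    have hinj : Function.Injective val := fun i j e => by
      by_contra hne; exact hno i j hne e
    have h1 := Nat.card_le_card_of_injective val hinj
    have h2 : Nat.card {l // inL (vk k) l} ≤ 4 := by
      refine le_of_le_of_eq (Nat.card_le_card_of_surjective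
        (fun i : Fin 4 => (⟨![0, vk k, om (vk k), om (om (vk k))] i, by
          fin_cases i <;> simp [inL]⟩ : {l // inL (vk k) l})) fun l => ?_) (Nat.card_fin 4)
      obtain ⟨i, hi⟩ := exists_inL k l.2
      exact ⟨i, Subtype.ext hi.symm⟩
    rw [Nat.card_fin] at h1
    omega
  have key : ∀ i j : Fin 5, i < j → val i = val j → c ∈ S := by
    intro i j hlt he
    have e0 : F.ac (t i) (outk k) = F.ac (t j) (outk k) := by
      have := congrArg (fun l => vadd l (outk k)) (congrArg Subtype.val he)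
      simpa only [val, vadd_cancel] using this
    have hti := (C.CV_le_side (C.le_CV (hrj i).1)).1
    have htj := (C.CV_le_side (C.le_CV (hrj j).1)).1
    have hQ : (t i)⁻¹ * t j ∈ Qz := by
      refine F.mem_of_ac_eq hti htj fun e => ?_
      obtain ⟨d, hd, hd1, hd2⟩ :=
        F.exists_perp_add (vec_facts k).2.1.1 (vec_facts k).2.1.2 e
      have ed : F.ac (t i) d = F.ac (t j) d := by
        rcases hd with rfl | rfl | rfl | rfl
        · rw [F.ac_zero hti, F.ac_zero htj]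
        · exact e0
        · rw [C.lin_CV (C.le_CV (hrj i).1), C.lin_CV (C.le_CV (hrj j).1), e0]
        · rw [F.ac_add hti, F.ac_add htj, C.lin_CV (C.le_CV (hrj i).1),
            C.lin_CV (C.le_CV (hrj j).1), e0]
      rw [← vadd_cancel e d, F.ac_add hti, F.ac_add htj, ed,
        C.center_fix_perp (hrj i) hd1 hd2, C.center_fix_perp (hrj j) hd1 hd2]
    have hZ : C.IsZ ((t i)⁻¹ * t j) := ⟨C.RR.mul_mem (C.RR.inv_mem (hrj i).1) (hrj j).1,
      fun q hq => (Commute.mul_right (Commute.inv_right ((hrj i).2 q hq)) ((hrj j).2 q hq))⟩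
    have hv := C.Qz_center hZ hQ
    set d := j.val - i.val with hd
    have hjd : j.val = i.val + d := by omega
    have hcd : c ^ d ∈ S := by
      refine ⟨C.CV.pow_mem hc d, ?_⟩
      set p := c ^ i.val
      have hp : p ∈ C.CV := C.CV.pow_mem hc _
      have h1 : (c ^ i.val * r * (c ^ i.val)⁻¹)⁻¹ * (c ^ j.val * r * (c ^ j.val)⁻¹) ∈ C.VV := hv
      rw [hjd, pow_add] at h1
      have h2 : r⁻¹ * (c ^ d * r * (c ^ d)⁻¹) ∈ C.VV := by
        have := C.CV_comm (C.CV.inv_mem hp) h1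
        rw [show r⁻¹ * (c ^ d * r * (c ^ d)⁻¹) =
          p⁻¹ * ((p * r * p⁻¹)⁻¹ * (p * c ^ d * r * (p * c ^ d)⁻¹)) * p by group, this,
          inv_mul_cancel_right]
        exact h1
      have h3 := C.CV_comm (C.le_CV hr.1) h2
      rw [mul_inv_cancel_left] at h3
      rw [h3, mul_inv_cancel_right]
      exact h2
    exact cycle_back S h5S hcd (by omega) (by omega)
  rcases lt_or_gt_of_ne hij with hlt | hlt
  · exact (key i j hlt he).2
  · exact (key j i hlt he.symm).2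

/-- Lifts of the monomial generators centralizing the subgroup of order eight. -/
theorem exists_lift_CV (i : Fin 2) :
    ∃ c ∈ C.CV, c ^ 5 ∈ C.RR ∧ ∀ v, C.frame.ac c v = gk k i v := by
  have F := C.frame
  obtain ⟨c, hc, -, hce⟩ := C.exists_lift i
  obtain ⟨c', hc', hce'⟩ : ∃ c' ∈ C.CV, ∀ v, F.ac c' v = gk k i v := by
    have hpr : pr (c * (x * s * x⁻¹) * c⁻¹) = pr (x * s * x⁻¹) := by
      rw [F.ac_pr hc.1 C.s'_mem, hce, C.s'_pr, (gk_fix k i).2]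
    rcases F.eq_or C.s'_mem (F.conj_mem hc.1 C.s'_mem) hpr.symm with e | e
    · exact ⟨c, C.mem_CV hc.1 hc.2 (mem_cz_of_conj e), hce⟩
    · obtain ⟨q, hq, hqp⟩ := F.surj (outk k)
      have hqs : q ∈ cz s := mem_cz.2 ((F.comm q hq s C.s_mem).2 (by
        rw [hqp, C.s_pr]; exact (vec_facts k).2.1.1))
      have hqt := F.conj_eq_mul hq C.s'_mem (by rw [hqp, C.s'_pr]; exact (vec_facts k).2.1.2)
      refine ⟨q * c, C.mem_CV ((cz z).mul_mem (F.le_cz hq) hc.1) ((cz s).mul_mem hqs hc.2)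
        (mem_cz_of_conj ?_), fun v => by rw [F.ac_mul (F.le_cz hq) hc.1, F.ac_of_mem hq, hce]⟩
      calc q * c * (x * s * x⁻¹) * (q * c)⁻¹ = q * (c * (x * s * x⁻¹) * c⁻¹) * q⁻¹ := by group
        _ = q * z * q⁻¹ * (q * (x * s * x⁻¹) * q⁻¹) := by rw [e]; group
        _ = _ := by
            rw [conj_eq_of_mem_cz (F.le_cz hq), hqt, ← mul_assoc, F.setting.z_mul_z, one_mul]
  have hcz := (C.CV_le_side hc').1
  have h5 : c' ^ 5 ∈ Qz := F.faithful' ((cz z).pow_mem hcz 5) fun v => by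
    rw [C.ac_pow hcz hce' 5]
    exact gk_five k i v
  exact ⟨c', hc', Subgroup.mem_sup_left ⟨h5, C.CV.pow_mem hc' 5⟩, hce'⟩

/-- The centre of the radical. -/
theorem center_mem {r : G} (hr : C.IsZ r) : r ∈ C.VV := by
  have F := C.frame
  refine C.Qz_center hr ?_
  obtain ⟨a, ha, b, hb, rfl⟩ := C.exists_decomp hr.1
  obtain ⟨w, hw, -, -, hwQ, hwQ'⟩ := C.mem_side_swap
  let I := Qz ⊓ conjQ Qz g
  have hIw : ∀ y ∈ I, w⁻¹ * y * w ∈ I := fun y hy => ⟨(hwQ y).1 hy.2, (hwQ' y).1 hy.1⟩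
  -- `b` is fixed modulo `I` by elements of order five modulo the radical
  have hbfix : ∀ c ∈ C.CV, c ^ 5 ∈ C.RR → c * b * c⁻¹ * b⁻¹ ∈ I := by
    intro c hc h5
    refine ⟨?_, (conjQ Qz g).mul_mem
      ((C.setting_s.normalized c (mem_cz.1 (C.CV_le_side hc).2) b).1 hb.1)
      ((conjQ Qz g).inv_mem hb.1)⟩
    have hv := C.five_fix hc h5 hr
    rw [show c * b * c⁻¹ * b⁻¹ =
      (c * a * c⁻¹)⁻¹ * (c * (a * b) * c⁻¹ * (a * b)⁻¹) * a by group]
    exact Qz.mul_mem (Qz.mul_mem (Qz.inv_mem (F.conj_mem (C.CV_le_side hc).1 ha.1)) hv.1) ha.1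
  set b' := w⁻¹ * b * w with hb'
  have hb'Q : b' ∈ Qz := (hwQ b).1 hb.1
  have hb'CV : b' ∈ C.CV := by
    have := C.CV_normal (C.LL.inv_mem hw) hb.2
    rwa [inv_inv] at this
  have hperp : orth (pr b') (vk k) ∧ orth (pr b') (om (vk k)) := by
    rw [← C.s_pr, ← F.comm b' hb'Q s C.s_mem, C.s_pr, ← C.s'_pr, ← F.comm b' hb'Q _ C.s'_mem]
    exact ⟨mem_cz.1 (C.CV_le_side hb'CV).2, mem_cz.1 (C.CV_cent_s' hb'CV)⟩
  have hfix : ∀ i, C.Ibar (vadd (gk k i (pr b')) (pr b')) := by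
    intro i
    obtain ⟨c, hc, h5, hce⟩ := C.exists_lift_CV i
    have hc' : w * c * w⁻¹ ∈ C.CV := C.CV_normal hw hc
    have h5' : (w * c * w⁻¹) ^ 5 ∈ C.RR := by
      rw [conj_pow]; exact C.conj_mem_RR hw h5
    have h := hIw _ (hbfix _ hc' h5')
    refine ⟨_, h, ?_⟩
    have hcz := (C.CV_le_side hc).1
    rw [show w⁻¹ * (w * c * w⁻¹ * b * (w * c * w⁻¹)⁻¹ * b⁻¹) * w = c * b' * c⁻¹ * b'⁻¹ by
      rw [hb']; group]
    rw [F.mul _ (F.conj_mem hcz hb'Q) _ (Qz.inv_mem hb'Q), F.pr_inv hb'Q, F.ac_pr hcz hb'Q, hce]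
  -- the orthogonal of `L` is spanned by the intersection and its scalar multiple
  obtain ⟨e, heI, heL⟩ : ∃ e, C.Ibar e ∧ ¬ inL (vk k) e := by
    by_contra hno
    push Not at hno
    have hle : I ≤ C.VV := fun y hy => ⟨hy.1, hno _ ⟨y, hy, rfl⟩⟩
    have := Subgroup.card_le_of_le hle
    rw [C.pair_card, C.card_VV] at this
    omega
  let W : Fin 4096 → Prop := fun e => ∃ p q, C.Ibar p ∧ C.Ibar q ∧ e = vadd p (om q)
  have hadd : ∀ u v, W u → W v → W (vadd u v) := by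
    rintro _ _ ⟨p, q, hp, hq, rfl⟩ ⟨p', q', hp', hq', rfl⟩
    exact ⟨_, _, C.Ibar_add hp hp', C.Ibar_add hq hq', by rw [F.om_add, vadd_vadd_vadd]⟩
  have hom : ∀ u, W u → W (om u) := by
    rintro _ ⟨p, q, hp, hq, rfl⟩
    refine ⟨q, vadd p q, hq, C.Ibar_add hp hq, ?_⟩
    rw [F.om_add, F.om_add, om_om q, ← vadd_assoc, ← vadd_assoc, vadd_comm (om p) q]
  have hg : ∀ i u, W u → W (gk k i u) := by
    rintro i _ ⟨p, q, hp, hq, rfl⟩
    exact ⟨_, _, C.Ibar_gk i hp, C.Ibar_gk i hq, by rw [F.gk_add, C.gk_om]⟩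
  have hWe : W e := ⟨e, 0, heI, ⟨1, I.one_mem, F.pr_one⟩, by rw [om_zero, vadd_zero]⟩
  obtain ⟨p, q, hp, hq, hpq⟩ :=
    mem_of_closed hadd hom hg (C.Ibar_perp heI).1 heL hWe _ hperp.1 hperp.2
  have hqL : inL (vk k) q := by
    refine inL_of_fixed k q fun i => ?_
    have h1 := hfix i
    rw [hpq, F.gk_add, C.gk_om, vadd_vadd_vadd, ← F.om_add] at h1
    have h2 := C.Ibar_add (C.Ibar_add (C.Ibar_gk i hp) hp) h1
    rw [← vadd_assoc, vadd_self, vadd_comm, vadd_zero] at h2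
    have h3 : C.Ibar (om (om (om (vadd (gk k i q) q)))) := by
      rw [om_om_om]; exact C.Ibar_add (C.Ibar_gk i hq) hq
    have h4 := inL_om k (inL_om k (C.inL_of_Ibar h2 h3))
    rwa [om_om_om] at h4
  obtain ⟨y, hy, hye⟩ := C.Ibar_add hp (C.Ibar_of_inL (inL_om k hqL))
  have hb'I : b' ∈ I := by
    rcases F.eq_or hy.1 hb'Q (hye.trans hpq.symm) with e' | e' <;> rw [e']
    · exact hy
    · exact I.mul_mem ⟨F.setting.z_mem, C.z_mem_conjQ⟩ hy
  have hbQ : b ∈ Qz := by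
    rw [hwQ', ← hb']
    exact hb'I.2
  exact Qz.mul_mem ha.1 hbQ

theorem center_map : (Subgroup.center ↥C.RR).map C.RR.subtype = C.VV := by
  ext r
  constructor
  · rintro ⟨r, hr, rfl⟩
    exact C.center_mem ⟨r.2, fun q hq =>
      congrArg Subtype.val (Subgroup.mem_center_iff.1 hr ⟨q, hq⟩)⟩
  · intro hr
    exact ⟨⟨r, C.VV_le_RR hr⟩, Subgroup.mem_center_iff.2 fun q =>
      Subtype.ext (C.CV_comm (C.le_CV q.2) hr), rfl⟩

theorem mem_center_of_VV {r : ↥C.RR} (h : (r : G) ∈ C.VV) : r ∈ Subgroup.center ↥C.RR := by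
  rw [← C.center_map] at h
  obtain ⟨r', hr', e⟩ := h
  rw [show r = r' from Subtype.ext e.symm]
  exact hr'

theorem VV_le_commutator : C.VV ≤ ⁅C.RR, C.RR⁆ := by
  have F := C.frame
  obtain ⟨-, -, ⟨p1, p2, q1, q2, hpq⟩, -⟩ := vec_facts k
  have lift : ∀ e, orth e (vk k) → orth e (om (vk k)) → ∃ a ∈ Qz ⊓ C.CV, pr a = e := by
    intro e h1 h2
    obtain ⟨a, ha, rfl⟩ := F.surj e
    exact ⟨a, ⟨ha, C.mem_CV (F.le_cz ha)
      (mem_cz.2 ((F.comm a ha s C.s_mem).2 (by rwa [C.s_pr])))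
      (mem_cz.2 ((F.comm a ha _ C.s'_mem).2 (by rwa [C.s'_pr])))⟩, rfl⟩
  obtain ⟨a, ha, hap⟩ := lift _ p1 p2
  obtain ⟨b, hb, hbp⟩ := lift _ q1 q2
  have hz : z ∈ ⁅C.RR, C.RR⁆ := by
    have e := F.conj_eq_mul ha.1 hb.1 (by rw [hap, hbp]; exact hpq)
    have : ⁅a, b⁆ = z := by rw [commutatorElement_def, e, mul_inv_cancel_right]
    have hmem : ⁅a, b⁆ ∈ ⁅C.RR, C.RR⁆ :=
      Subgroup.commutator_mem_commutator (Subgroup.mem_sup_left ha) (Subgroup.mem_sup_left hb)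
    rwa [this] at hmem
  intro v hv
  rcases eq_or_ne v 1 with rfl | h1
  · exact Subgroup.one_mem _
  obtain ⟨h, hh, rfl⟩ := C.exists_conj_of_mem hv h1
  have hmap : C.RR.map (MulAut.conj h).toMonoidHom ≤ C.RR := by
    rintro _ ⟨r, hr, rfl⟩
    exact C.conj_mem_RR hh hr
  have := Subgroup.mem_map_of_mem (MulAut.conj h).toMonoidHom hz
  rw [Subgroup.map_commutator] at this
  exact Subgroup.commutator_mono hmap hmap this

theorem isSpecial_RR : IsSpecial 2 ↥C.RR := by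
  have : Fact (Nat.Prime 2) := ⟨Nat.prime_two⟩
  have hsq : ∀ a : ↥C.RR, a * a ∈ Subgroup.center ↥C.RR := fun a =>
    C.mem_center_of_VV (C.sq_mem_VV a.2)
  have hcomm : ∀ a b : ↥C.RR, ⁅a, b⁆ ∈ Subgroup.center ↥C.RR := fun a b => by
    rw [commutator_eq_squares]
    refine Subgroup.mul_mem _ (Subgroup.mul_mem _ (hsq _) ?_) (Subgroup.inv_mem _ (hsq _))
    have := Subgroup.Normal.conj_mem (H := Subgroup.center ↥C.RR) inferInstance _
      (Subgroup.inv_mem _ (hsq a)) b⁻¹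
    rwa [inv_inv] at this
  have h1 : frattini ↥C.RR ≤ Subgroup.center ↥C.RR := by
    have h := CfsgLib.CharP.frattini_le_ker_of_elementary (p := 2)
      (QuotientGroup.mk' (Subgroup.center ↥C.RR)) (fun a b => by
        rw [← commutatorElement_eq_one_iff_commute, ← map_commutatorElement]
        exact (QuotientGroup.eq_one_iff _).mpr (hcomm a b)) (fun a => by
        rw [← map_pow, pow_two]; exact (QuotientGroup.eq_one_iff _).mpr (hsq a))
    rwa [QuotientGroup.ker_mk'] at h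
  have h2 : Subgroup.center ↥C.RR ≤ commutator ↥C.RR := by
    intro r hr
    have hm : (r : G) ∈ ⁅C.RR, C.RR⁆ :=
      C.VV_le_commutator (C.center_map ▸ Subgroup.mem_map_of_mem _ hr)
    have e0 : (⊤ : Subgroup ↥C.RR).map C.RR.subtype = C.RR := by
      rw [← MonoidHom.range_eq_map, Subgroup.range_subtype]
    have hm' : (r : G) ∈ (commutator ↥C.RR).map C.RR.subtype := by
      rw [commutator_def, Subgroup.map_commutator, e0]; exact hm
    obtain ⟨r', hr', e⟩ := hm'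
    rwa [← Subtype.ext e]
  have h3 : commutator ↥C.RR ≤ frattini ↥C.RR := by
    rw [commutator_def, Subgroup.commutator_le]
    intro a _ b _
    have hf := CfsgLib.LargeExtraspecial.sq_mem_frattini C.isPGroup_RR
    rw [commutator_eq_squares]
    refine Subgroup.mul_mem _ (Subgroup.mul_mem _ (hf _) ?_) (Subgroup.inv_mem _ (hf _))
    have := Subgroup.Normal.conj_mem (H := frattini ↥C.RR) inferInstance _
      (Subgroup.inv_mem _ (hf a)) b⁻¹
    rwa [inv_inv] at this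
  exact ⟨C.isPGroup_RR, le_antisymm h1 (h2.trans h3), le_antisymm (h3.trans h1) h2⟩

end Cfg

end CfsgLib.LargeFischer60
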