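import Cfsg.Agent.LargeFischer60.Special
import Cfsg.Agent.AltAutSq.Basic

/-!
Large Fischer type: the normalizer of the subgroup of order eight modulo its radical is
`SL₃(2) × A₆`, and the radical is the largest normal 2-subgroup.
-/

set_option autoImplicit false

namespace CfsgLib.LargeFischer60

open Cfsg CfsgLib.LargeFischer85

/-- An extension of `A₆` by `SL₃(2)` splits as a direct product. -/
theorem prod_of_extension {L : Type*} [Group L] [Finite L]
    (Φ : L →* Matrix.SpecialLinearGroup (Fin 3) (ZMod 2)) (hΦ : Function.Surjective Φ)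
    (e : ↥(alternatingGroup (Fin 6)) →* L) (he : Function.Injective e) (hr : e.range = Φ.ker) :
    Nonempty (L ≃* Matrix.SpecialLinearGroup (Fin 3) (ZMod 2) × ↥(alternatingGroup (Fin 6))) := by
  classical
  let A := ↥(alternatingGroup (Fin 6))
  have : IsSimpleGroup (Matrix.SpecialLinearGroup (Fin 3) (ZMod 2)) := isSimpleGroup_slt
  have hN : e.range.Normal := hr ▸ Φ.normal_ker
  let Cn := Subgroup.centralizer (e.range : Set L)
  have hint : ∀ y ∈ Cn, Φ y = 1 → y = 1 := by
    intro y hy h1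
    obtain ⟨a, rfl⟩ : y ∈ e.range := hr ▸ h1
    have hc : a ∈ Subgroup.center A := Subgroup.mem_center_iff.2 fun b =>
      he (by rw [map_mul, map_mul]; exact Subgroup.mem_centralizer_iff.1 hy _ ⟨b, rfl⟩)
    rw [alternatingGroup.center_eq_bot (by simp), Subgroup.mem_bot] at hc
    rw [hc, map_one]
  have hCn : Cn.Normal := inferInstance
  have hsurjC : Cn.map Φ = ⊤ := by
    refine (hCn.map Φ hΦ).eq_bot_or_eq_top.resolve_left fun hbot => ?_
    let ι : A ≃* ↥e.range := MonoidHom.ofInjective he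
    have hconj : ∀ (y : L) (a : A), y * e a * y⁻¹ ∈ e.range := fun y a =>
      hN.conj_mem _ ⟨a, rfl⟩ y
    let θ : L → MulAut A := fun y =>
      (ι.trans ((MulAut.conjNormal : L →* MulAut ↥e.range) y)).trans ι.symm
    have hθ : ∀ (y : L) (a : A), e (θ y a) = y * e a * y⁻¹ := fun y a => by
      have h : e (ι.symm ((MulAut.conjNormal : L →* MulAut ↥e.range) y (ι a))) =
          ((MulAut.conjNormal : L →* MulAut ↥e.range) y (ι a) : L) :=
        congrArg Subtype.val (ι.apply_symm_apply _)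
      exact h
    have h4 : ∀ y : L, Φ y ^ 4 = 1 := by
      intro y
      obtain ⟨σ, hσ⟩ := CfsgLib.AltAutSq.sq_mem_range (le_of_lt (by norm_num : 5 < 6)) (θ y)
      let τ : A := ⟨σ * σ, Equiv.Perm.mem_alternatingGroup.2 (by
        rw [map_mul, Int.units_mul_self])⟩
      have hτ : ∀ a : A, θ y (θ y (θ y (θ y a))) = τ * a * τ⁻¹ := fun a => by
        have h2 : ∀ b : A, θ y (θ y b) = (MulAut.conjNormal σ : MulAut A) b := fun b => by
          rw [hσ]; rfl
        rw [h2, h2]
        apply Subtype.ext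
        rw [MulAut.conjNormal_apply, MulAut.conjNormal_apply, Subgroup.coe_mul, Subgroup.coe_mul,
          Subgroup.coe_inv]
        show σ * (σ * (a : Equiv.Perm (Fin 6)) * σ⁻¹) * σ⁻¹ = σ * σ * a * (σ * σ)⁻¹
        group
      have hmem : y ^ 4 * (e τ)⁻¹ ∈ Cn := by
        rw [Subgroup.mem_centralizer_iff]
        rintro _ ⟨a, rfl⟩
        obtain ⟨b, hb⟩ : ∃ b : A, b = τ⁻¹ * a * τ := ⟨_, rfl⟩
        have h := congrArg e (hτ b)
        rw [hθ, hθ, hθ, hθ, hb, show τ * (τ⁻¹ * a * τ) * τ⁻¹ = a by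
          rw [mul_assoc τ⁻¹, mul_inv_cancel_left, mul_inv_cancel_right], map_mul, map_mul,
          map_inv] at h
        rw [show y ^ 4 = y * y * y * y by simp [pow_succ]]
        calc e a * (y * y * y * y * (e τ)⁻¹)
            = y * (y * (y * (y * ((e τ)⁻¹ * e a * e τ) * y⁻¹) * y⁻¹) * y⁻¹) * y⁻¹ *
              (y * y * y * y * (e τ)⁻¹) := by rw [h]
          _ = y * y * y * y * (e τ)⁻¹ * e a := by group
      have h1 : Φ (y ^ 4 * (e τ)⁻¹) ∈ Cn.map Φ := Subgroup.mem_map_of_mem _ hmem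
      rw [hbot, Subgroup.mem_bot, map_mul, map_inv, map_pow,
        show Φ (e τ) = 1 from MonoidHom.mem_ker.1 (hr ▸ ⟨τ, rfl⟩), inv_one, mul_one] at h1
      exact h1
    have : Fact (Nat.Prime 3) := ⟨Nat.prime_three⟩
    obtain ⟨S, hS⟩ := exists_prime_orderOf_dvd_card'
      (G := Matrix.SpecialLinearGroup (Fin 3) (ZMod 2)) 3
      (by rw [CfsgLib.SmallIso.card_sl_three_two]; norm_num)
    obtain ⟨y, rfl⟩ := hΦ S
    have := orderOf_dvd_of_pow_eq_one (h4 y)
    rw [hS] at this
    norm_num at this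
  have hΦC : Function.Bijective (Φ.comp Cn.subtype) := by
    refine ⟨(injective_iff_map_eq_one _).2 fun y hy => Subtype.ext (hint _ y.2 hy), fun S => ?_⟩
    obtain ⟨y, hy, hys⟩ : S ∈ Cn.map Φ := hsurjC ▸ Subgroup.mem_top S
    exact ⟨⟨y, hy⟩, hys⟩
  let f : Matrix.SpecialLinearGroup (Fin 3) (ZMod 2) →* L :=
    Cn.subtype.comp (MulEquiv.ofBijective (Φ.comp Cn.subtype) hΦC).symm.toMonoidHom
  have hf : ∀ S, Φ (f S) = S := fun S =>
    (MulEquiv.ofBijective (Φ.comp Cn.subtype) hΦC).apply_symm_apply S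
  have hcomm : ∀ S a, Commute (f S) (e a) := fun S a =>
    (Subgroup.mem_centralizer_iff.1
      ((MulEquiv.ofBijective (Φ.comp Cn.subtype) hΦC).symm S).2 _ ⟨a, rfl⟩).symm
  let F := f.noncommCoprod e hcomm
  have hΦe : ∀ a, Φ (e a) = 1 := fun a => MonoidHom.mem_ker.1 (hr ▸ ⟨a, rfl⟩)
  have hF : Function.Bijective F := by
    refine ⟨(injective_iff_map_eq_one _).2 ?_, fun y => ?_⟩
    · rintro ⟨S, a⟩ h
      have h1 := congrArg Φ h
      rw [MonoidHom.noncommCoprod_apply, map_mul, hf, hΦe, mul_one, map_one] at h1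
      subst h1
      rw [MonoidHom.noncommCoprod_apply, map_one, one_mul] at h
      exact Prod.ext rfl (he (h.trans (map_one e).symm))
    · obtain ⟨a, ha⟩ : (f (Φ y))⁻¹ * y ∈ e.range := by
        rw [hr, MonoidHom.mem_ker, map_mul, map_inv, hf, inv_mul_cancel]
      exact ⟨(Φ y, a), by rw [MonoidHom.noncommCoprod_apply, ha, mul_inv_cancel_left]⟩
  exact ⟨(MulEquiv.ofBijective F hF).symm⟩

namespace Cfg

variable {G : Type*} [Group G] [Finite G] {Qz : Subgroup G} {z : G} {pr : G → Fin 4096}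
  {k : ZMod 3} {s g x : G} (C : Cfg Qz z pr k s g x)
include C

theorem normal_RR : (C.RR.subgroupOf C.LL).Normal :=
  (Subgroup.normal_subgroupOf_iff_le_normalizer (C.le_CV.trans C.CV_le_LL)).2 C.LL_le_normalizer

theorem nonempty_quotient [(C.RR.subgroupOf C.LL).Normal] :
    Nonempty (↥C.LL ⧸ C.RR.subgroupOf C.LL ≃*
      Matrix.SpecialLinearGroup (Fin 3) (ZMod 2) × ↥(alternatingGroup (Fin 6))) := by
  let R' := C.RR.subgroupOf C.LL
  have hker : R' ≤ C.toSL.ker := fun h hh => (C.toSL_eq_one_iff h).2 (C.le_CV hh)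
  let Φ : ↥C.LL ⧸ R' →* _ := QuotientGroup.lift R' C.toSL hker
  have hΦ : Function.Surjective Φ := fun S => by
    obtain ⟨h, rfl⟩ := C.toSL_surjective S
    exact ⟨h, rfl⟩
  let j : ↥C.CV →* ↥C.LL ⧸ R' := (QuotientGroup.mk' R').comp (Subgroup.inclusion C.CV_le_LL)
  have hj : j.ker = C.psi.ker := by
    ext c
    rw [MonoidHom.mem_ker, MonoidHom.mem_ker, C.psi_eq_one]
    exact (QuotientGroup.eq_one_iff _).trans Subgroup.mem_subgroupOf
  let e : ↥(alternatingGroup (Fin 6)) →* ↥C.LL ⧸ R' :=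
    (QuotientGroup.kerLift j).comp
      ((QuotientGroup.quotientMulEquivOfEq hj.symm).toMonoidHom.comp
        (QuotientGroup.quotientKerEquivOfSurjective C.psi C.psi_surjective).symm.toMonoidHom)
  refine prod_of_extension Φ hΦ e ?_ ?_
  · exact (QuotientGroup.kerLift_injective j).comp
      ((QuotientGroup.quotientMulEquivOfEq hj.symm).injective.comp
        (QuotientGroup.quotientKerEquivOfSurjective C.psi C.psi_surjective).symm.injective)
  · ext y
    constructor
    · rintro ⟨a, rfl⟩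
      obtain ⟨c, rfl⟩ := C.psi_surjective a
      rw [MonoidHom.mem_ker]
      have : e (C.psi c) = j c := by
        show QuotientGroup.kerLift j (QuotientGroup.quotientMulEquivOfEq hj.symm
          ((QuotientGroup.quotientKerEquivOfSurjective C.psi C.psi_surjective).symm (C.psi c))) = _
        rw [show (QuotientGroup.quotientKerEquivOfSurjective C.psi C.psi_surjective).symm
          (C.psi c) = (c : ↥C.CV ⧸ C.psi.ker) from
            (MulEquiv.symm_apply_eq _).2 rfl]
        rfl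
      rw [this]
      exact (C.toSL_eq_one_iff _).2 c.2
    · intro hy
      obtain ⟨h, rfl⟩ := QuotientGroup.mk'_surjective R' y
      have hh : (h : G) ∈ C.CV := (C.toSL_eq_one_iff h).1 hy
      refine ⟨C.psi ⟨h, hh⟩, ?_⟩
      show QuotientGroup.kerLift j (QuotientGroup.quotientMulEquivOfEq hj.symm
          ((QuotientGroup.quotientKerEquivOfSurjective C.psi C.psi_surjective).symm _)) = _
      rw [show (QuotientGroup.quotientKerEquivOfSurjective C.psi C.psi_surjective).symm
        (C.psi ⟨h, hh⟩) = ((⟨h, hh⟩ : ↥C.CV) : ↥C.CV ⧸ C.psi.ker) from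
          (MulEquiv.symm_apply_eq _).2 rfl]
      rfl

theorem RR_eq_pCore : C.RR = (pCore 2 ↥C.LL).map C.LL.subtype := by
  have : Fact (Nat.Prime 2) := ⟨Nat.prime_two⟩
  have := C.normal_RR
  refine le_antisymm ?_ ?_
  · rw [← Subgroup.map_subgroupOf_eq_of_le (C.le_CV.trans C.CV_le_LL)]
    exact Subgroup.map_mono (le_sSup ⟨inferInstance,
      C.isPGroup_RR.of_equiv (Subgroup.subgroupOfEquivOfLe (C.le_CV.trans C.CV_le_LL)).symm⟩)
  · have hP := CfsgLib.LargeExtraspecial.isPGroup_pCore (G := ↥C.LL) 2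
    have hn : (pCore 2 ↥C.LL).Normal := Subgroup.sSup_normal _ fun _ h => h.1
    have hker : pCore 2 ↥C.LL ≤ C.toSL.ker := by
      have : IsSimpleGroup (Matrix.SpecialLinearGroup (Fin 3) (ZMod 2)) := isSimpleGroup_slt
      rw [← Subgroup.map_eq_bot_iff]
      refine (hn.map _ C.toSL_surjective).eq_bot_or_eq_top.resolve_right fun htop => ?_
      obtain ⟨n, hn'⟩ := IsPGroup.iff_card.1 (hP.map C.toSL)
      rw [htop, Subgroup.card_top, CfsgLib.SmallIso.card_sl_three_two] at hn'
      have h3 : 3 ∣ 2 ^ n := hn' ▸ (by norm_num : 3 ∣ 168)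
      exact absurd (Nat.prime_three.dvd_of_dvd_pow h3) (by norm_num)
    refine C.le_RR_of_normalized ?_ ?_ (hP.map _)
    · rintro _ ⟨h, hh, rfl⟩
      exact (C.toSL_eq_one_iff h).1 (hker hh)
    · refine C.CV_le_LL.trans ?_
      have := Subgroup.le_normalizer_map (H := pCore 2 ↥C.LL) C.LL.subtype
      rw [Subgroup.normalizer_eq_top_iff.2 hn, ← MonoidHom.range_eq_map,
        Subgroup.range_subtype] at this
      exact this

end Cfg

end CfsgLib.LargeFischer60
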