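import Cfsg.Agent.LargeFischer60.Config

/-!
Large Fischer type: the third involution lies in the conjugate of `Q`, and the subgroup of order
eight is invariant under an element exchanging `z` and `s`.
-/

set_option autoImplicit false

namespace CfsgLib.LargeFischer60

open Cfsg CfsgLib.LargeFischer85
open CfsgLib.LargeExtraspecial (Setting zOf mem_zOf)

variable {G : Type*} [Group G] {Qz : Subgroup G} {z : G} {pr : G → Fin 4096} {k : ZMod 3}

namespace Frame

variable (F : Frame Qz z pr k)
include F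

theorem eq_zero_of_orth_all {l : Fin 4096} (h : ∀ e, orth l e) : l = 0 := by
  obtain ⟨a, ha, rfl⟩ := F.surj l
  refine (F.ker a ha).2 ((F.setting.mem_iff a).1 (mem_zOf.2 ⟨ha, fun b hb => ?_⟩))
  exact ((F.comm a ha b hb).2 (h _)).symm

theorem orth_L {a l : Fin 4096} (h1 : orth a (vk k)) (h2 : orth a (om (vk k)))
    (hl : inL (vk k) l) : orth a l := by
  rcases hl with rfl | rfl | rfl | rfl
  · exact F.orth_zero a
  · exact h1
  · exact h2
  · rw [om_om, F.orth_add_right]; exact iff_of_true h1 h2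

/-- The multiples of a vector orthogonal to `v` but not to `ω v` supplement the orthogonal of
`L`. -/
theorem exists_perp_add {u : Fin 4096} (h1 : orth u (vk k)) (h2 : ¬ orth u (om (vk k)))
    (e : Fin 4096) : ∃ d, (d = 0 ∨ d = u ∨ d = om u ∨ d = vadd u (om u)) ∧
      orth (vadd e d) (vk k) ∧ orth (vadd e d) (om (vk k)) := by
  have h3 : orth (om u) (om (vk k)) := (F.orth_om u (vk k)).2 h1
  have h4 : ¬ orth (om u) (vk k) := by
    rw [← om_om_om (vk k), F.orth_om, om_om, F.orth_add_right]
    exact fun h => h2 (h.1 h1)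
  have z1 : orth 0 (vk k) := F.orth_comm.1 (F.orth_zero _)
  have z2 : orth 0 (om (vk k)) := F.orth_comm.1 (F.orth_zero _)
  by_cases p : orth e (vk k) <;> by_cases q : orth e (om (vk k))
  · exact ⟨0, Or.inl rfl, by simp only [F.orth_add_left, p, z1],
      by simp only [F.orth_add_left, q, z2]⟩
  · exact ⟨u, Or.inr (Or.inl rfl), by simp only [F.orth_add_left, p, h1],
      by simp only [F.orth_add_left, q, h2]⟩
  · exact ⟨om u, Or.inr (Or.inr (Or.inl rfl)), by simp only [F.orth_add_left, p, h4],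
      by simp only [F.orth_add_left, q, h3]⟩
  · exact ⟨vadd u (om u), Or.inr (Or.inr (Or.inr rfl)),
      by simp only [F.orth_add_left, p, h1, h4, iff_false, not_true_eq_false],
      by simp only [F.orth_add_left, q, h2, h3, iff_true]⟩

/-- A linear element moving every vector only inside `L` fixes the orthogonal of `L`. -/
theorem fix_perp {b : G} (hb : b ∈ cz z) (hmove : ∀ e, inL (vk k) (vadd (F.ac b e) e))
    {a : Fin 4096} (h1 : orth a (vk k)) (h2 : orth a (om (vk k))) : F.ac b a = a := by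
  set l := vadd (F.ac b a) a with hl
  refine vadd_eq_zero (F.eq_zero_of_orth_all fun e => ?_)
  rw [← hl]
  have ea : F.ac b a = vadd a l := by rw [hl, vadd_comm a, vadd_cancel]
  have ee : F.ac b e = vadd e (vadd (F.ac b e) e) := by rw [vadd_comm e, vadd_cancel]
  have h := F.ac_orth hb a e
  rw [ea, ee] at h
  have t1 : orth a (vadd (F.ac b e) e) := F.orth_L h1 h2 (hmove e)
  have t2 : orth l (vadd (F.ac b e) e) := (orth_inL k (hmove a) (hmove e)).1
  have hh : orth (vadd a l) (vadd e (vadd (F.ac b e) e)) ↔ (orth a e ↔ orth l e) := by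
    rw [F.orth_add_left, F.orth_add_right a, F.orth_add_right l]
    simp only [t1, t2, iff_true]
  rw [hh] at h
  by_cases p : orth a e
  · exact (h.2 p).1 p
  · by_contra q
    exact p (h.1 (iff_of_false p q))

end Frame

namespace Cfg

variable {s g x : G} (C : Cfg Qz z pr k s g x)
include C

theorem card_side [Finite G] : Nat.card ↥(conjQ Qz g ⊓ cz z) = 2 ^ 12 := by
  obtain ⟨w, hw1, hw2, hwQ, -⟩ := C.exists_swap
  rw [← C.card_centralizing, show conjQ Qz g ⊓ cz z =
    (Qz ⊓ cz s).map (MulAut.conj w).toMonoidHom from ?_,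
    Subgroup.card_map_of_injective (MulAut.conj w).injective]
  ext a
  rw [LargeExtraspecial.mem_conj_iff, Subgroup.mem_inf, Subgroup.mem_inf, hwQ, mem_cz, mem_cz]
  refine and_congr_right fun _ => ?_
  rw [← hw2]
  constructor
  · intro e
    calc w⁻¹ * a * w * s = w⁻¹ * (a * (w * s * w⁻¹)) * w := by group
      _ = _ := by rw [e]; group
  · intro e
    calc a * (w * s * w⁻¹) = w * (w⁻¹ * a * w * s) * w⁻¹ := by group
      _ = _ := by rw [e]; group

/-- `Q ∩ Qˢ` centralizes the third involution. -/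
theorem orth_inter [Finite G] {a : G} (ha : a ∈ Qz ⊓ conjQ Qz g) :
    orth (pr a) (om (vk k)) := by
  classical
  have F := C.frame
  by_contra hne
  set u := pr a with hu
  have h1 : orth u (vk k) := by
    rw [hu, ← C.s_pr, ← F.comm a ha.1 s C.s_mem]
    exact C.setting_s.comm ha.2
  have huL : ¬ inL (vk k) u := fun h => hne (orth_inL k h (Or.inr (Or.inr (Or.inl rfl)))).1
  let A := conjQ Qz g ⊓ cz z
  let B := A ⊓ F.linSub
  let W : Fin 4096 → Prop := fun e => ∀ b ∈ B, inL (vk k) (vadd (F.ac b e) e)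
  have Wadd : ∀ p q, W p → W q → W (vadd p q) := fun p q hp hq b hb => by
    rw [F.ac_add hb.1.2, vadd_vadd_vadd]; exact inL_vadd k (hp b hb) (hq b hb)
  have Wom : ∀ p, W p → W (om p) := fun p hp b hb => by
    rw [hb.2.2, ← F.om_add]; exact inL_om k (hp b hb)
  have Wg : ∀ i p, W p → W (gk k i p) := by
    intro i p hp b hb
    obtain ⟨c, hc, hcl, hce⟩ := C.exists_lift i
    have hb' : c⁻¹ * b * c ∈ B := by
      refine ⟨⟨?_, (cz z).mul_mem ((cz z).mul_mem ((cz z).inv_mem hc.1) hb.1.2) hc.1⟩,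
        F.linSub.mul_mem (F.linSub.mul_mem (F.linSub.inv_mem ⟨hc.1, hcl⟩) hb.2) ⟨hc.1, hcl⟩⟩
      have := (C.setting_s.normalized c⁻¹ (mem_cz.1 ((cz s).inv_mem hc.2)) b).1 hb.1.1
      rwa [inv_inv] at this
    have e : F.ac b (gk k i p) = gk k i (F.ac (c⁻¹ * b * c) p) := by
      rw [← hce, ← hce, ← F.ac_mul hb.1.2 hc.1, ← F.ac_mul hc.1 hb'.1.2]
      congr 1
      group
    rw [e, ← F.gk_add, C.gk_inL i (hp _ hb')]
    exact hp _ hb'
  have Wu : W u := by
    intro b hb
    rw [hu, ← F.ac_pr hb.1.2 ha.1]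
    rcases LargeExtraspecial.conj_mem_two C.setting_s.extraspecial C.setting_s.mem_iff
      hb.1.1 ha.2 with e | e
    · rw [e, vadd_self]; exact Or.inl rfl
    · rw [e, F.mul s C.s_mem a ha.1, C.s_pr, vadd_assoc, vadd_self, vadd_zero]
      exact Or.inr (Or.inl rfl)
  have Wall : ∀ e, W e := by
    intro e
    obtain ⟨d, hd, hd1, hd2⟩ := F.exists_perp_add h1 hne e
    have hWd : W d := by
      rcases hd with rfl | rfl | rfl | rfl
      · exact vadd_self u ▸ Wadd _ _ Wu Wu
      · exact Wu
      · exact Wom _ Wu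
      · exact Wadd _ _ Wu (Wom _ Wu)
    exact vadd_cancel e d ▸ Wadd _ _ (mem_of_closed Wadd Wom Wg h1 huL Wu _ hd1 hd2) hWd
  -- elements of `B` are determined modulo `Q` by the image of `u`
  have hdet : ∀ b ∈ B, ∀ b' ∈ B, F.ac b u = F.ac b' u → b⁻¹ * b' ∈ Qz ⊓ conjQ Qz g := by
    intro b hb b' hb' e
    refine ⟨F.mem_of_ac_eq hb.1.2 hb'.1.2 fun v => ?_,
      (conjQ Qz g).mul_mem ((conjQ Qz g).inv_mem hb.1.1) hb'.1.1⟩
    obtain ⟨d, hd, hd1, hd2⟩ := F.exists_perp_add h1 hne v
    have ed : F.ac b d = F.ac b' d := by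
      rcases hd with rfl | rfl | rfl | rfl
      · rw [F.ac_zero hb.1.2, F.ac_zero hb'.1.2]
      · exact e
      · rw [hb.2.2, hb'.2.2, e]
      · rw [F.ac_add hb.1.2, F.ac_add hb'.1.2, hb.2.2, hb'.2.2, e]
    rw [← vadd_cancel v d, F.ac_add hb.1.2, F.ac_add hb'.1.2, ed,
      F.fix_perp hb.1.2 (fun e => Wall e b hb) hd1 hd2,
      F.fix_perp hb'.1.2 (fun e => Wall e b' hb') hd1 hd2]
  have hB : Nat.card ↥B ≤ 4 * 2 ^ 7 := by
    let val : ↥B → {l // inL (vk k) l} := fun b => ⟨vadd (F.ac b u) u, Wu b b.2⟩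
    have key : ∀ b b' : ↥B, val b = val b' → (b : G)⁻¹ * b' ∈ Qz ⊓ conjQ Qz g := fun b b' e =>
      hdet b b.2 b' b'.2 (by
        have := congrArg (fun l => vadd l u) (congrArg Subtype.val e)
        simpa only [val, vadd_cancel] using this)
    have : Nonempty ↥B := ⟨1⟩
    let f : ↥B → {l // inL (vk k) l} × ↥(Qz ⊓ conjQ Qz g) := fun b => (val b,
      ⟨((Function.invFun val (val b) : ↥B) : G)⁻¹ * b, key _ b (Function.invFun_eq ⟨b, rfl⟩)⟩)
    have hf : Function.Injective f := fun b b' e => by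
      have e1 : val b = val b' := congrArg Prod.fst e
      have e2 := congrArg (fun p => (p.2 : G)) e
      simp only [f, e1] at e2
      exact Subtype.ext (mul_left_cancel e2)
    refine (Nat.card_le_card_of_injective f hf).trans ?_
    rw [Nat.card_prod, C.pair_card]
    refine Nat.mul_le_mul_right _ ?_
    refine le_of_le_of_eq (Nat.card_le_card_of_surjective
      (fun i : Fin 4 => (⟨![0, vk k, om (vk k), om (om (vk k))] i, by
        fin_cases i <;> simp [inL]⟩ : {l // inL (vk k) l})) fun l => ?_) (Nat.card_fin 4)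
    obtain ⟨i, hi⟩ := exists_inL k l.2
    exact ⟨i, Subtype.ext hi.symm⟩
  have hA : Nat.card ↥A = 2 ^ 12 := C.card_side
  have hBA : Nat.card ↥(B.subgroupOf A) = Nat.card ↥B :=
    Nat.card_congr (Subgroup.subgroupOfEquivOfLe (inf_le_left : B ≤ A)).toEquiv
  have hidx : (B.subgroupOf A).index ≤ 2 := by
    by_cases hall : ∀ b : ↥A, F.Lin b
    · rw [show B.subgroupOf A = ⊤ from eq_top_iff.2 fun b _ => ⟨b.2, b.2.2, hall b⟩,
        Subgroup.index_top]
      omega
    · obtain ⟨a₀, ha₀⟩ := not_forall.1 hall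
      refine le_of_eq (Subgroup.index_eq_two_iff.2 ⟨a₀, fun b => ?_⟩)
      have hmem : ∀ c : ↥A, c ∈ B.subgroupOf A ↔ F.Lin c := fun c =>
        ⟨fun h => h.2.2, fun h => ⟨c.2, c.2.2, h⟩⟩
      rw [hmem, hmem, Subgroup.coe_mul]
      by_cases hb : F.Lin (b : G)
      · refine Or.inr ⟨hb, fun h => ha₀ ?_⟩
        have := F.lin_mul ((cz z).inv_mem b.2.2) ((cz z).mul_mem b.2.2 a₀.2.2)
          (F.lin_inv b.2.2 hb) h
        rwa [inv_mul_cancel_left] at this
      · exact Or.inl ⟨F.lin_mul_anti b.2.2 a₀.2.2 ((F.lin_or_anti b.2.2).resolve_left hb)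
          ((F.lin_or_anti a₀.2.2).resolve_left ha₀), hb⟩
  have h := (B.subgroupOf A).card_mul_index
  rw [hA, hBA] at h
  have := Nat.mul_le_mul hB hidx
  omega

/-- The third involution lies in the conjugate of `Q`. -/
theorem s'_mem_conjQ [Finite G] : x * s * x⁻¹ ∈ conjQ Qz g := by
  set t := x * s * x⁻¹ with ht
  let I := Qz ⊓ conjQ Qz g
  have hcom : ∀ a ∈ I, a * t = t * a := fun a ha =>
    (C.frame.comm a ha.1 t C.s'_mem).2 (by rw [C.s'_pr]; exact C.orth_inter ha)
  have htt : t * t = 1 := C.s'_sq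
  have htQ : t ∈ Qz := C.s'_mem
  clear_value t
  let J : Subgroup G :=
    { carrier := {y | y ∈ I ∨ y * t ∈ I}
      one_mem' := Or.inl I.one_mem
      mul_mem' := by
        rintro a b (ha | ha) (hb | hb)
        · exact Or.inl (I.mul_mem ha hb)
        · exact Or.inr (by rw [mul_assoc]; exact I.mul_mem ha hb)
        · refine Or.inr ?_
          have := I.mul_mem ha hb
          rwa [mul_assoc, ← hcom b hb, ← mul_assoc] at this
        · refine Or.inl ?_
          have h1 : b * t = t * b := by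
            have := hcom _ hb
            rw [mul_assoc b t t, htt, mul_one] at this
            calc b * t = t * (t * (b * t)) := by rw [← mul_assoc, htt, one_mul]
              _ = t * b := by rw [← this]
          have := I.mul_mem ha hb
          rwa [h1, show a * t * (t * b) = a * (t * t) * b by group, htt, mul_one] at this
      inv_mem' := by
        rintro a (ha | ha)
        · exact Or.inl (I.inv_mem ha)
        · refine Or.inr ?_
          have h1 := hcom _ ha
          rw [mul_assoc a t t, htt, mul_one] at h1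
          have := I.inv_mem ha
          rwa [mul_inv_rev, inv_eq_of_mul_eq_one_right htt, show t * a⁻¹ = a⁻¹ * t from ?_]
            at this
          have h2 : a * t = t * a := by
            calc a * t = t * (t * (a * t)) := by rw [← mul_assoc, htt, one_mul]
              _ = t * a := by rw [← h1]
          exact eq_inv_mul_iff_mul_eq.2 (by rw [← mul_assoc, h2, mul_inv_cancel_right]) }
  have hIJ : I ≤ J := fun a ha => Or.inl ha
  have hJQ : J ≤ Qz := by
    rintro a (ha | ha)
    · exact ha.1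
    · have := Qz.mul_mem ha.1 htQ
      rwa [mul_assoc, htt, mul_one] at this
  have hJsq : ∀ a ∈ J, a * a = 1 := by
    rintro a (ha | ha)
    · exact C.inf_sq ha
    · have h1 := hcom _ ha
      have e : a = a * t * t := by rw [mul_assoc, htt, mul_one]
      rw [e]
      calc a * t * t * (a * t * t) = a * t * (t * (a * t)) * t := by group
        _ = a * t * (a * t * t) * t := by rw [h1]
        _ = (a * t) * (a * t) * (t * t) := by group
        _ = 1 := by rw [C.inf_sq ha, htt, one_mul]
  obtain ⟨n, w, π, hπ, -, hn⟩ := CfsgLib.ExtraspecialTwo.exists_coord C.frame.setting.extraspecial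
  obtain rfl : n = 6 := by
    have := Nat.pow_right_injective (le_refl 2) (C.frame.card.symm.trans hn)
    omega
  have hle := (hπ.card_le (J.subgroupOf Qz) fun a ha => Subtype.ext (hJsq _ ha)).1
  rw [Nat.card_congr (Subgroup.subgroupOfEquivOfLe hJQ).toEquiv] at hle
  have heq : I = J := Subgroup.eq_of_le_of_card_ge hIJ (by rw [C.pair_card]; exact hle)
  have htJ : t ∈ J := Or.inr (by rw [htt]; exact I.one_mem)
  rw [← heq] at htJ
  exact htJ.2

end Cfg

end CfsgLib.LargeFischer60
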